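import Mathlib
import Cfsg.Prelude.Def_QuasithinSetup
import Cfsg.Agent.Cmp.Defs
import Cfsg.Agent.QT.Defs
import Cfsg.Agent.Loc.AmBasic

/-!
# S1848: definitions (plan in `stubs/Cfsg/Agent/QE/PLAN.md`)
-/

set_option autoImplicit false

namespace Cfsg.Agent.QE

open Cfsg Subgroup Cfsg.Agent.GT Cfsg.Agent.Inv Cfsg.Agent.Cmp
open scoped commutatorElement

universe u

/-! ### Abstract groups -/

/-- `L₂(2ⁿ)` (`n ≥ 2`), `Sz(q)`, or `L₂(p)` with `p ≥ 7` a Fermat or Mersenne prime. -/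
def Lst (X : Type*) [Group X] : Prop :=
  (∃ (F : Type) (_ : Field F) (_ : Fintype F), CharP F 2 ∧ 4 ≤ Fintype.card F ∧
      Nonempty (X ≃* Matrix.ProjectiveSpecialLinearGroup (Fin 2) F)) ∨
    Lie.IsoSuzuki X ∨
    ∃ (F : Type) (_ : Field F) (_ : Fintype F), IsTwoPowerNeighbourPrime (Fintype.card F) ∧
      7 ≤ Fintype.card F ∧ Nonempty (X ≃* Matrix.ProjectiveSpecialLinearGroup (Fin 2) F)

theorem Lst.of_equiv {X Y : Type*} [Group X] [Group Y] (h : Lst Y) (e : X ≃* Y) : Lst X := by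
  rcases h with ⟨F, _, _, h1, h2, ⟨f⟩⟩ | ⟨F, _, _, m, h1, h2, ⟨f⟩⟩ | ⟨F, _, _, h1, h2, ⟨f⟩⟩
  · exact Or.inl ⟨F, inferInstance, inferInstance, h1, h2, ⟨e.trans f⟩⟩
  · exact Or.inr (Or.inl ⟨F, inferInstance, inferInstance, m, h1, h2, ⟨e.trans f⟩⟩)
  · exact Or.inr (Or.inr ⟨F, inferInstance, inferInstance, h1, h2, ⟨e.trans f⟩⟩)

/-- The facts used about a member of the list; `2 ^ m₂(X) = q`. -/
structure Ty (q : ℕ) (X : Type*) [Group X] : Prop where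
  simple : IsSimpleGroup X
  nab : ¬ IsMulCommutative X
  q4 : 4 ≤ q
  outc : ∀ α β : MulAut X, ⁅α, β⁆ ∈ Inn X
  one : ∀ a b : X, orderOf a = 2 → orderOf b = 2 → IsConj a b
  ci : ∀ a x : X, orderOf a = 2 → Commute a x → Odd (orderOf x) → x = 1
  sy : ∀ (U : Sylow 2 X) (α : MulAut X), α * α = 1 → (∀ u ∈ U, α u = u) → α ∈ Inn X
  o1 : ∀ α β : MulAut X, α * α = 1 → β * β = 1 → Commute α β →
    α ∈ Inn X ∨ β ∈ Inn X ∨ α * β ∈ Inn X
  bd : ∀ Y : Subgroup (MulAut X), IsElementaryAbelian 2 Y → Nat.card Y ≤ q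
  ex : ∃ E H : Subgroup X, IsElementaryAbelian 2 E ∧ Nat.card E = q ∧ Odd (Nat.card H) ∧
    H ≤ NN E ∧ (∀ a ∈ E, ∀ b ∈ E, a ≠ 1 → b ≠ 1 → ∃ h ∈ H, h * a * h⁻¹ = b) ∧
    (3 ∣ Nat.card H ∨ ∀ α : MulAut X, α * α = 1 → α ∈ Inn X)
  o3 : ∀ α : MulAut X, α * α = 1 → α ∉ Inn X →
    ∃ ρ e : X, orderOf ρ = 3 ∧ e * ρ * e⁻¹ = ρ⁻¹ ∧ α ρ = ρ ∧ α e = e

/-- Centralizer of an element. -/
abbrev C1 {G : Type*} [Group G] (t : G) : Subgroup G := centralizer ({t} : Set G)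

/-- An involution centralized by a subgroup of index at most 2 of a Sylow 2-subgroup has a
centralizer of characteristic 2. -/
def KB (X : Type*) [Group X] : Prop :=
  ∀ (U : Sylow 2 X) (b : X), orderOf b = 2 → (C1 b).relIndex U ≤ 2 → Loc.Am.IsCharP 2 (C1 b)

/-- An outer involution fixing a Sylow 2-subgroup has no component from the list. -/
def KA (X : Type*) [Group X] : Prop :=
  ∀ (U : Sylow 2 X) (σ : MulAut X), σ * σ = 1 → σ ∉ Inn X → (∀ u ∈ U, σ u = u) →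
    ∀ M : Subgroup X, IsComponentOf M (fixedSubgroup σ) → Lst M → (NN M).relIndex U ≤ 2 → False

/-! ### Subgroups of a group -/

variable {G : Type*} [Group G]

theorem mem_C1 {t x : G} : x ∈ C1 t ↔ Commute x t := mem_centralizer_singleton_iff

/-- `x` acts on `A` as an element of `A`. -/
def In (A : Subgroup G) (x : G) : Prop := ∃ a ∈ A, x * a⁻¹ ∈ CC A

theorem In.of_mem {A : Subgroup G} {x : G} (h : x ∈ A) : In A x := ⟨x, h, by simp⟩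

theorem In.of_CC {A : Subgroup G} {x : G} (h : x ∈ CC A) : In A x := ⟨1, one_mem A, by simpa using h⟩

theorem In.mul {A : Subgroup G} {x y : G} (hx : In A x) (hy : In A y) : In A (x * y) := by
  obtain ⟨a, ha, h1⟩ := hx
  obtain ⟨b, hb, h2⟩ := hy
  refine ⟨a * b, mul_mem ha hb, ?_⟩
  have := mul_mem h1 h2
  rwa [show x * a⁻¹ * (y * b⁻¹) = x * (a⁻¹ * (y * b⁻¹)) by group,
    (comm_of_CC h2 (inv_mem ha)).eq, show x * (y * b⁻¹ * a⁻¹) = x * y * (a * b)⁻¹ by group] at this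

theorem In.conj_eq {A : Subgroup G} {x a : G} (h : x * a⁻¹ ∈ CC A) (ha : a ∈ A) {k : G}
    (hk : k ∈ A) : x * k * x⁻¹ = a * k * a⁻¹ := by
  have h1 := (comm_of_CC h (mul_mem (mul_mem ha hk) (inv_mem ha))).symm
  calc x * k * x⁻¹ = x * a⁻¹ * (a * k * a⁻¹) * (x * a⁻¹)⁻¹ := by group
    _ = a * k * a⁻¹ := conj_eq_of_comm h1

theorem In.conj {A : Subgroup G} {x : G} (h : In A x) (g : G) : In (A ^ᶜ g) (g * x * g⁻¹) := by
  obtain ⟨a, ha, h1⟩ := h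
  refine ⟨g * a * g⁻¹, conj_mem_map_conj.2 ha, ?_⟩
  have := conj_mem_CC g h1
  rwa [show g * (x * a⁻¹) * g⁻¹ = g * x * g⁻¹ * (g * a * g⁻¹)⁻¹ by group] at this

/-- `Ty` for a subgroup, in terms of the ambient group. -/
structure TyG (q : ℕ) (A : Subgroup G) : Prop where
  qs : IsQuasisimple A
  zen : A ⊓ CC A = ⊥
  sim : ∀ N : Subgroup G, N ≤ A → A ≤ NN N → N = ⊥ ∨ N = A
  q4 : 4 ≤ q
  outc : ∀ x ∈ NN A, ∀ y ∈ NN A, In A ⁅x, y⁆
  one : ∀ a ∈ A, ∀ b ∈ A, orderOf a = 2 → orderOf b = 2 → ∃ g ∈ A, g * a * g⁻¹ = b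
  ci : ∀ a ∈ A, ∀ x ∈ A, orderOf a = 2 → Commute a x → Odd (orderOf x) → x = 1
  sy : ∀ U, Syl U A → ∀ x ∈ NN A, x * x ∈ CC A → x ∈ CC U → In A x
  o1 : ∀ x ∈ NN A, ∀ y ∈ NN A, x * x ∈ CC A → y * y ∈ CC A → Commute x y →
    In A x ∨ In A y ∨ In A (x * y)
  bd : ∀ Y ≤ NN A, IsElementaryAbelian 2 Y → Nat.card Y ≤ q * Nat.card (Y ⊓ CC A : Subgroup G)
  ex : ∀ e ∈ A, orderOf e = 2 → ∃ E H : Subgroup G, e ∈ E ∧ E ≤ A ∧ H ≤ A ∧
    IsElementaryAbelian 2 E ∧ Nat.card E = q ∧ Odd (Nat.card H) ∧ H ≤ NN E ∧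
    (∀ a ∈ E, ∀ b ∈ E, a ≠ 1 → b ≠ 1 → ∃ h ∈ H, h * a * h⁻¹ = b) ∧
    (3 ∣ Nat.card H ∨ ∀ x ∈ NN A, x * x ∈ CC A → In A x)
  o3 : ∀ x ∈ NN A, x * x ∈ CC A → ¬ In A x →
    ∃ ρ ∈ A, ∃ e ∈ A, orderOf ρ = 3 ∧ e * ρ * e⁻¹ = ρ⁻¹ ∧ Commute x ρ ∧ Commute x e
  inv : ∃ e ∈ A, orderOf e = 2

/-- The facts used about a proper cover of a Suzuki group. -/
structure TcG (q : ℕ) (A : Subgroup G) : Prop where
  qs : IsQuasisimple A
  two : IsPGroup 2 (A ⊓ CC A : Subgroup G)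
  ne : A ⊓ CC A ≠ ⊥
  q8 : 8 ≤ q
  outc : ∀ x ∈ NN A, ∀ y ∈ NN A, In A ⁅x, y⁆
  inn : ∀ x ∈ NN A, Two x → In A x
  ci : ∀ a ∈ A, a ∉ CC A → a * a ∈ CC A → ∀ x ∈ A, ⁅a, x⁆ ∈ CC A → Odd (orderOf x) → x = 1
  zu : ∀ U, Syl U A → ∀ x ∈ A, x ∈ CC U → x ∈ CC A
  bd : ∀ Y ≤ NN A, IsElementaryAbelian 2 Y → Nat.card Y ≤ q * Nat.card (Y ⊓ CC A : Subgroup G)
  ex : ∀ l ∈ A, l ∉ CC A → l * l ∈ CC A → ∃ E : Subgroup G, l ∈ E ∧ E ≤ A ∧
    IsElementaryAbelian 2 E ∧ A ⊓ CC A ≤ E ∧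
    Nat.card E = q * Nat.card (A ⊓ CC A : Subgroup G) ∧
    ∀ a ∈ E, a ∉ CC A → ∃ g ∈ A, g * l * g⁻¹ = a

/-- The global hypotheses. -/
structure Gl (G : Type u) [Group G] : Prop where
  simple : IsSimpleGroup G
  qt : IsQuasithin G
  e1 : ∀ t : G, orderOf t = 2 → oddCore (C1 t) = ⊥
  e2 : ∀ (t : G) (J : Subgroup G), orderOf t = 2 → IsComponentOf J (C1 t) → IsQTEvenTypeComponent J

/-- The counterexample: `L` is a component of `C(z)`, `z ∈ Z(T)`, and `u ∈ T` moves `L`. -/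
structure Cf (T L : Subgroup G) (z u : G) : Prop where
  syl : Syl T ⊤
  z2 : orderOf z = 2
  zT : z ∈ T
  zc : T ≤ C1 z
  comp : IsComponentOf L (C1 z)
  uT : u ∈ T
  un : u ∉ NN L
  idx : (NN L).relIndex T = 2

/-- The stabilizer of the unordered pair `{A, B}`. -/
def St2 (A B : Subgroup G) : Subgroup G where
  carrier := {g | (A ^ᶜ g = A ∧ B ^ᶜ g = B) ∨ (A ^ᶜ g = B ∧ B ^ᶜ g = A)}
  one_mem' := Or.inl ⟨map_conj_one A, map_conj_one B⟩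
  mul_mem' := fun {a b} ha hb => by
    rcases ha with ⟨h1, h2⟩ | ⟨h1, h2⟩ <;> rcases hb with ⟨h3, h4⟩ | ⟨h3, h4⟩ <;>
      simp only [Set.mem_ofPred_eq, map_conj_mul, h1, h2, h3, h4, and_self, true_or, or_true]
  inv_mem' := fun {a} ha => by
    rcases ha with ⟨h1, h2⟩ | ⟨h1, h2⟩
    · exact Or.inl ⟨by conv_lhs => rw [← h1, map_conj_map_conj, inv_mul_cancel, map_conj_one],
        by conv_lhs => rw [← h2, map_conj_map_conj, inv_mul_cancel, map_conj_one]⟩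
    · exact Or.inr ⟨by conv_lhs => rw [← h2, map_conj_map_conj, inv_mul_cancel, map_conj_one],
        by conv_lhs => rw [← h1, map_conj_map_conj, inv_mul_cancel, map_conj_one]⟩

theorem mem_St2 {A B : Subgroup G} {g : G} :
    g ∈ St2 A B ↔ (A ^ᶜ g = A ∧ B ^ᶜ g = B) ∨ (A ^ᶜ g = B ∧ B ^ᶜ g = A) := Iff.rfl

/-- A conjugacy class of ordered pairs of commuting simple groups; each member is a component in
the centralizer of every involution of its partner. -/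
structure Fm (q : ℕ) (P : Subgroup G → Subgroup G → Prop) : Prop where
  symm : ∀ {A B}, P A B → P B A
  conj : ∀ {A B} (g : G), P A B → P (A ^ᶜ g) (B ^ᶜ g)
  trans : ∀ {A B M N}, P A B → P M N → ∃ g : G, M = A ^ᶜ g ∧ N = B ^ᶜ g
  ty : ∀ {A B}, P A B → TyG q A
  comm : ∀ {A B}, P A B → B ≤ CC A
  comp : ∀ {A B}, P A B → ∀ e ∈ A, orderOf e = 2 → IsComponentOf B (C1 e)

/-- The centre of the product of a pair. -/
abbrev ZZ (A B : Subgroup G) : Subgroup G := (A ⊔ B) ⊓ (CC A ⊓ CC B)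

/-- A conjugacy class of ordered pairs of commuting covers; both members are components in the
centralizer of every involution of the centre of their product. -/
structure Fc (q : ℕ) (P : Subgroup G → Subgroup G → Prop) : Prop where
  symm : ∀ {A B}, P A B → P B A
  conj : ∀ {A B} (g : G), P A B → P (A ^ᶜ g) (B ^ᶜ g)
  trans : ∀ {A B M N}, P A B → P M N → ∃ g : G, M = A ^ᶜ g ∧ N = B ^ᶜ g
  ty : ∀ {A B}, P A B → TcG q A
  comm : ∀ {A B}, P A B → B ≤ CC A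
  comp : ∀ {A B}, P A B → ∀ x ∈ ZZ A B, orderOf x = 2 → IsComponentOf A (C1 x)

end Cfsg.Agent.QE
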