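import Mathlib
import Cfsg.Agent.QE.Defs
import Cfsg.Agent.GT.Components
import Cfsg.Agent.GT.Cores
import Cfsg.Agent.GT.CoprimeNilp
import Cfsg.Agent.Loc.MssSyl

/-! # S1848, piece QE-X1: no component inside a centralizer of characteristic 2 -/

set_option autoImplicit false
set_option linter.unusedVariables false

namespace Cfsg.Agent.QE

open Cfsg Subgroup Cfsg.Agent.GT Cfsg.Agent.Inv Cfsg.Agent.Cmp
open scoped commutatorElement

universe u

theorem X1.zp {X : Type*} [Group X] {a b k : X} (h : Commute a b) (hk : k ∈ zpowers a) : Commute k b := by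
  obtain ⟨n, rfl⟩ := hk
  exact h.zpow_left n

theorem x1 {X : Type*} [Group X] [Finite X] (hZ : center X = ⊥) {σ : MulAut X} (hσ : σ * σ = 1) {b : X}
    (hb : σ b = b) (hc : Loc.Am.IsCharP 2 (C1 b)) {M : Subgroup X}
    (hM : IsComponentOf M (fixedSubgroup σ)) (hle : M ≤ C1 b) : False := by
  have inj : Function.Injective (MulAut.conj : X →* MulAut X) := (injective_iff_map_eq_one _).2 fun x hx =>
    mem_bot.1 (hZ ▸ mem_center_iff.2 fun g => (mul_inv_eq_iff_eq_mul.1 (DFunLike.congr_fun hx g)).symm)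
  have hcj : ∀ x, σ * MulAut.conj x * σ⁻¹ = MulAut.conj (σ x) := fun x => MulEquiv.ext fun y => by simp
  have hQ := isPGroup_pCoreOf 2 (C1 b)
  have hQσ : ∀ x ∈ pCoreOf 2 (C1 b), σ x ∈ pCoreOf 2 (C1 b) := fun x hx => by
    have e : (C1 b).map σ.toMonoidHom = C1 b := eq_of_le_of_card_ge (by
      rintro _ ⟨y, hy, rfl⟩
      exact mem_C1.2 (hb ▸ (mem_C1.1 hy).map σ)) (card_map_of_injective σ.injective).ge
    exact e ▸ map_pCoreOf_le (C1 b) σ.toMonoidHom ⟨x, hx, rfl⟩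
  have hMQ : M ≤ NN (pCoreOf 2 (C1 b)) := hle.trans (le_normalizer_pCoreOf _)
  have h1 : M ≤ CC (pCoreOf 2 (C1 b) ⊓ fixedSubgroup σ) :=
    hM.le_centralizer_of_isSolvable inf_le_right (Loc.Mss.norm_inf hMQ (hM.le.trans le_normalizer))
      (haveI := (hQ.to_inf_left (K := fixedSubgroup σ)).isNilpotent; inferInstance)
  refine hM.isQuasisimple.not_isSolvable ?_
  have h2 : IsPGroup 2 M := Loc.Mss.pg_of_res_le hQ (Loc.Mss.res_le_iff.2 fun m hm ho => hc ⟨hle hm, ?_⟩)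
  · have := h2.isNilpotent
    infer_instance
  have h3 := CopAct.thompson_times (p := 2) (P := zpowers σ) (Q := zpowers (MulAut.conj m))
    (U := (pCoreOf 2 (C1 b)).map MulAut.conj) (Two.of_sq hσ).isPGroup
    (by rwa [Nat.card_zpowers, orderOf_injective _ inj]) (hQ.map _)
    (zpowers_le.2 (Loc.Mss.cent_comm (A := zpowers _) (B := zpowers σ) (zpowers_le.2 (mem_CC.2 fun k hk =>
      (X1.zp (comm_of_conj_eq (by rw [hcj, hM.le hm])) hk))) (mem_zpowers σ)))
    (zpowers_le.2 (mem_normalizer_fintype (by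
      rintro _ ⟨x, hx, rfl⟩
      exact ⟨_, hQσ x hx, (hcj x).symm⟩)))
    (zpowers_le.2 (Loc.Mss.map_norm_le _ hMQ ⟨m, hm, rfl⟩)) (by
      rintro _ ⟨⟨x, hx, rfl⟩, h⟩
      have h4 : σ x = x := inj ((hcj x).symm.trans (conj_eq_of_comm (comm_of_CC h (mem_zpowers σ))))
      exact mem_CC.2 fun k hk => X1.zp ((comm_of_CC (h1 hm) ⟨hx, h4⟩).symm.map _) hk)
  exact fun x hx => inj (by simpa only [map_mul] using h3 (mem_zpowers _) _ ⟨x, hx, rfl⟩)

theorem ka_of {X : Type*} [Group X] [Finite X] (hZ : center X = ⊥) (kb : KB X)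
    (hty : ∀ M : Subgroup X, Lst M → ∃ q, Ty q M)
    (h : ∀ M : Subgroup X, Lst M → ∀ P : Subgroup (MulAut M), IsPGroup 2 P →
      Nat.card P < 2 ^ (Nat.card X).factorization 2) : KA X := by
  intro U σ hσ _ hU M hM hL hi
  obtain ⟨q, ty⟩ := hty M hL
  have kbx : ∀ c ∈ (U : Subgroup X), orderOf c = 2 → c ∈ CC M → NN M ⊓ U ≤ C1 c → False := fun c hc c2 hcM hn =>
    x1 hZ hσ (hU c hc) (kb U c c2 ((relIndex_le_of_le_left hn index_ne_zero_of_finite).trans
      (by rwa [inf_relIndex_right]))) hM fun m hm => mem_C1.2 (comm_of_CC hcM hm)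
  have zen : ∀ x ∈ M, x ∈ CC M → x = 1 := fun x hx hc => by
    have := ty.simple
    rcases (inferInstance : (center M).Normal).eq_bot_or_eq_top with e | e
    · have : (⟨x, hx⟩ : M) ∈ center M := mem_center_iff.2 fun g => Subtype.ext (comm_of_CC hc g.2).eq
      rw [e, mem_bot] at this
      exact congrArg Subtype.val this
    · exact (ty.nab ⟨⟨fun a b => mem_center_iff.1 (e ▸ mem_top b) a⟩⟩).elim
  have nrm : ∀ g ∈ (U : Subgroup X), ∀ y ∈ M, y ≠ 1 → Commute g y → g ∈ NN M := fun g hg y hy y1 hc => by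
    rcases hM.map_conj_eq_or (le_normalizer (show g ∈ fixedSubgroup σ from hU g hg)) with e | e
    · exact Loc.Mss.cj_eq_iff.1 e
    · exact (y1 (zen y hy (commutator_eq_bot_iff_le_centralizer.1 e ⟨y, hy, conj_eq_of_comm hc⟩))).elim
  have hS := (Loc.Mss.Syl.of_sylow_le U (L := fixedSubgroup σ) hU).inf_subnormal hM.subnormalIn
  obtain ⟨y, hy, y2⟩ : ∃ y ∈ (U : Subgroup X) ⊓ M, orderOf y = 2 := exists_inv_of_ne_bot hS.pg fun e => by
    obtain ⟨E, -, hE, hq, -⟩ := ty.ex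
    have h1 := Loc.Mss.eq_bot_of_coprime hE.isPGroup le_top (by rw [card_top]; exact hS.eq_bot_iff.1 e)
    have := ty.q4
    rw [h1, card_bot] at hq
    omega
  have ne1 : ∀ {x : X}, orderOf x = 2 → x ≠ 1 := fun h e => by simp [e] at h
  obtain ⟨j, hj, j2, hjc⟩ := exists_inv_fixed U.isPGroup' le_normalizer hy.1 y2
  have jj : j * j = 1 := by rw [← sq, ← j2, pow_orderOf_eq_one]
  have hjN := nrm j hj y hy.2 (ne1 y2) (hjc y hy.1).symm
  obtain ⟨P, hP, -⟩ := hS.exists_sylow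
  obtain ⟨e, he⟩ := ty.sy P (M.normalizerMonoidHom ⟨j, hjN⟩)
    (by rw [← map_mul, show (⟨j, hjN⟩ * ⟨j, hjN⟩ : NN M) = 1 from Subtype.ext jj, map_one])
    fun u hu => Subtype.ext (conj_eq_of_comm (hjc u (hP.le hu).1).symm)
  have he' : ∀ m ∈ M, (e : X) * m * (e : X)⁻¹ = j * m * j⁻¹ := fun m hm =>
    congrArg Subtype.val (DFunLike.congr_fun he (⟨m, hm⟩ : M))
  have hc : (e : X)⁻¹ * j ∈ CC M := mem_CC.2 fun m hm => (comm_of_conj_eq (by
    calc _ = (e : X)⁻¹ * (j * m * j⁻¹) * e := by group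
      _ = m := by rw [← he' m hm]; group)).symm
  have je : Commute j (e : X) := comm_of_conj_eq (by rw [← he' _ e.2, mul_inv_cancel_right])
  have ee : (e : X) * e = 1 := zen _ (mul_mem e.2 e.2) (by
    have := inv_mem (mul_mem hc hc)
    rwa [je.symm.inv_left.symm.mul_mul_mul_comm, jj, mul_one, mul_inv_rev, inv_inv] at this)
  have heU : (e : X) ∈ (U : Subgroup X) := (hS.le_of_norm' (Two.of_sq ee).isPGroup (zpowers_le.2 e.2)
    (zpowers_le.2 (CC_le_NN _ (mem_CC.2 fun u hu => (comm_of_conj_eq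
      ((he' u hu.2).trans (conj_eq_of_comm (hjc u hu.1).symm))).symm))) (mem_zpowers _)).1
  have hjM : j ∈ M := by
    by_contra hn
    refine kbx _ (mul_mem (inv_mem heU) hj) (orderOf_eq_prime (by
      rw [sq, je.symm.inv_left.symm.mul_mul_mul_comm, jj, mul_one, ← mul_inv_rev, ee, inv_one])
      fun e1 => hn (inv_mul_eq_one.1 e1 ▸ e.2)) hc fun n hn => mem_C1.2 (comm_of_conj_eq ?_)
    have h1 : n * ((e : X)⁻¹ * j) * n⁻¹ * ((e : X)⁻¹ * j)⁻¹ = n * (e : X)⁻¹ * n⁻¹ * e := by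
      calc _ = n * (e : X)⁻¹ * n⁻¹ * (n * j * n⁻¹) * j⁻¹ * e := by group
        _ = _ := by rw [conj_eq_of_comm (hjc n hn.2)]; group
    exact mul_inv_eq_one.1 (zen _ (h1 ▸ mul_mem (Loc.Mss.conj_mem_of_norm hn.1 (inv_mem e.2)) e.2)
      (mul_mem (Loc.Mss.conj_mem_of_norm (Loc.Mss.norm_cent le_rfl hn.1) hc) (inv_mem hc)))
  have hUN : (U : Subgroup X) ≤ NN M := fun u hu => nrm u hu j hjM (ne1 j2) (hjc u hu)
  have hbot : (U : Subgroup X) ⊓ CC M = ⊥ := by
    by_contra hne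
    obtain ⟨w, hw, w2⟩ := exists_inv_of_ne_bot U.isPGroup'.to_inf_left hne
    obtain ⟨c, hc, c2, hcc⟩ := exists_inv_fixed U.isPGroup'
      (Loc.Mss.norm_inf le_normalizer (Loc.Mss.norm_cent hUN)) hw w2
    exact kbx c hc.1 c2 hc.2 fun n hn => mem_C1.2 (hcc n hn.2)
  have inj : Function.Injective (M.normalizerMonoidHom.comp (inclusion hUN)) :=
    (injective_iff_map_eq_one _).2 fun u hu => Subtype.ext (mem_bot.1 (hbot ▸ mem_inf.2 ⟨u.2, by
      have : inclusion hUN u ∈ M.normalizerMonoidHom.ker := hu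
      rwa [normalizerMonoidHom_ker] at this⟩))
  have := h M hL _ (U.isPGroup'.of_equiv (MonoidHom.ofInjective inj))
  rw [← Nat.card_congr (MonoidHom.ofInjective inj).toEquiv, U.card_eq_multiplicity] at this
  exact lt_irrefl _ this

end Cfsg.Agent.QE
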