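import Mathlib
import Cfsg.Agent.GT.Components
import Cfsg.Agent.QE.Defs
import Cfsg.Agent.QE.X1

/-! # S1848, piece QE-Bar: passage to the simple quotient (proof in stubs/Cfsg/Agent/QE/PLAN.md) -/

set_option autoImplicit false
set_option linter.unusedVariables false

namespace Cfsg.Agent.QE

open Cfsg Subgroup Cfsg.Agent.GT Cfsg.Agent.Inv Cfsg.Agent.Cmp
open scoped commutatorElement

universe u

theorem bar_le_NN {A : Type*} [Group A] {X N : Subgroup A}
    (h : ∀ x ∈ X, ∀ n ∈ N, x * n * x⁻¹ ∈ N) : X ≤ NN N := fun x hx =>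
  mem_normalizer_iff.2 fun n => ⟨h x hx n, fun hn => by
    have := h x⁻¹ (inv_mem hx) _ hn
    rwa [show x⁻¹ * (x * n * x⁻¹) * x⁻¹⁻¹ = n by group] at this⟩

theorem bar_map_center {A B : Type*} [Group A] [Group B] (e : A ≃* B) :
    (center A).map (e : A →* B) = center B := by
  ext y
  constructor
  · rintro ⟨x, hx, rfl⟩
    refine mem_center_iff.2 fun g => ?_
    obtain ⟨a, rfl⟩ := e.surjective g
    change e a * e x = e x * e a
    rw [← map_mul, ← map_mul, mem_center_iff.1 hx a]
  · intro hy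
    refine ⟨e.symm y, mem_center_iff.2 fun g => e.injective ?_, by simp⟩
    rw [map_mul, map_mul, e.apply_symm_apply, mem_center_iff.1 hy (e g)]

theorem bar0 {Y : Type*} [Group Y] [Finite Y] (hY : IsQuasisimple Y)
    (ka : KA (Y ⧸ center Y)) (kb : KB (Y ⧸ center Y)) {α : MulAut Y} (hα : α * α = 1)
    {L U S : Subgroup Y} (hL : IsComponentOf L (fixedSubgroup α)) (hne : L ≠ ⊤)
    (hl : Lst (L ⧸ center L)) (hl2 : IsPGroup 2 (center L)) (hU : Syl U ⊤) (h0 : S ≤ U)
    (hi : S.relIndex U ≤ 2) (hc : S ≤ fixedSubgroup α) (hn : S ≤ NN L) :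
    (∀ b ∈ S, b * b = 1 → b ∈ CC S → b ∈ CC L → b ∈ center Y) ∧
      ∃ s ∈ U, α s * s⁻¹ ∉ center Y := by
  classical
  haveI : Fact (Nat.Prime 2) := ⟨Nat.prime_two⟩
  haveI hs : IsSimpleGroup (Y ⧸ center Y) := hY.isSimpleGroup_quotient
  have hZ : center (Y ⧸ center Y) = ⊥ := by
    rcases IsSimpleGroup.eq_bot_or_eq_top_of_normal (center (Y ⧸ center Y)) inferInstance with h | h
    · exact h
    · refine absurd ⟨⟨fun a b => ?_⟩⟩ hY.not_isMulCommutative_quotient
      have : b ∈ center (Y ⧸ center Y) := h ▸ mem_top b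
      exact mem_center_iff.1 this a
  let π : Y →* Y ⧸ center Y := QuotientGroup.mk' (center Y)
  have hπ : Function.Surjective π := QuotientGroup.mk'_surjective _
  have hπ1 : ∀ y, π y = 1 ↔ y ∈ center Y := fun y => QuotientGroup.eq_one_iff y
  obtain ⟨σ, hσ⟩ : ∃ σ : MulAut (Y ⧸ center Y), ∀ y, σ (π y) = π (α y) :=
    ⟨QuotientGroup.congr _ _ α (bar_map_center α), fun _ => rfl⟩
  have hαα : ∀ y, α (α y) = y := fun y => by
    have := congrArg (fun β : MulAut Y => β y) hα
    simpa using this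
  have hσσ : σ * σ = 1 := by
    ext x
    obtain ⟨y, rfl⟩ := hπ x
    rw [MulAut.mul_apply, hσ, hσ, hαα, MulAut.one_apply]
  have hfix : ∀ y, σ (π y) = π y ↔ α y * y⁻¹ ∈ center Y := fun y => by
    rw [hσ, ← hπ1, map_mul, map_inv, mul_inv_eq_one]
  -- the component
  have hLZ : ¬ L ≤ center Y := fun h => hL.isQuasisimple.not_le_centralizer fun x hx =>
    mem_CC.2 fun k _ => mem_center_iff.1 (h hx) k
  have hM : IsComponentOf (L.map π) (fixedSubgroup σ) := by
    have h1 : fixedSubgroup α ≤ (fixedSubgroup σ).comap π := fun y hy => by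
      have hy' : α y = y := hy
      change σ (π y) = π y
      rw [hσ, hy']
    have h2 : (fixedSubgroup σ).comap π ≤ NN (fixedSubgroup α) := by
      refine bar_le_NN ?_
      intro x hx y hy
      have hy' : α y = y := hy
      have hx' : α x * x⁻¹ ∈ center Y := (hfix x).1 hx
      change α (x * y * x⁻¹) = x * y * x⁻¹
      rw [map_mul, map_mul, map_inv, hy']
      have := mem_center_iff.1 hx' (x * y * x⁻¹)
      calc α x * y * (α x)⁻¹ = (α x * x⁻¹) * (x * y * x⁻¹) * (α x * x⁻¹)⁻¹ := by group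
        _ = x * y * x⁻¹ := by rw [← this]; group
    have h3 := (hL.trans (SubnormalIn.of_le_normalizer h1 h2)).map π (fun h => hLZ fun x hx =>
      (hπ1 x).1 ((mem_bot).1 (h ▸ mem_map_of_mem π hx)))
    rwa [map_comap_eq_self_of_surjective hπ] at h3
  -- the Sylow subgroup
  have hidx : ¬ 2 ∣ (U.map π).index := fun h => hU.idx (by
    rw [relIndex_top_right]; exact h.trans (index_map_dvd U hπ))
  let V : Sylow 2 (Y ⧸ center Y) := (hU.two.map π).toSylow hidx
  have hV : (V : Subgroup (Y ⧸ center Y)) = U.map π := rfl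
  have hrel : ∀ H : Subgroup (Y ⧸ center Y), S.map π ≤ H →
      H.relIndex (V : Subgroup (Y ⧸ center Y)) ≤ 2 := fun H hH => by
    rw [hV, ← relIndex_comap]
    exact (relIndex_le_of_le_left (map_le_iff_le_comap.1 hH) index_ne_zero_of_finite).trans hi
  have key : ∀ b : Y ⧸ center Y, orderOf b = 2 → σ b = b → S.map π ≤ C1 b → L.map π ≤ C1 b →
      False := fun b h2 hb h3 h4 => x1 hZ hσσ hb (kb V b h2 (hrel _ h3)) hM h4
  refine ⟨fun b hb hbb hbS hbL => ?_, ?_⟩
  · by_contra hz
    refine key (π b) (orderOf_eq_prime (by rw [pow_two, ← map_mul, hbb, map_one])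
      (fun h => hz ((hπ1 b).1 h))) ?_ ?_ ?_
    · have : α b = b := hc hb
      rw [hσ, this]
    · rintro _ ⟨s, hs, rfl⟩
      exact mem_C1.2 ((comm_of_CC hbS hs).map π)
    · rintro _ ⟨s, hs, rfl⟩
      exact mem_C1.2 ((comm_of_CC hbL hs).map π)
  · by_contra hno
    push Not at hno
    have hfV : ∀ u ∈ V, σ u = u := by
      intro u hu
      obtain ⟨y, hy, rfl⟩ : u ∈ U.map π := hu
      exact (hfix y).2 (hno y hy)
    by_cases hin : σ ∈ Inn (Y ⧸ center Y)
    · obtain ⟨c, hcσ⟩ := hin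
      have hσc : ∀ x, σ x = c * x * c⁻¹ := fun x => by rw [← hcσ]; rfl
      by_cases hc1 : c = 1
      · haveI := hY.isPerfect
        have h1 : ∀ y, α y = y := perfect_hom_eq_self (α : Y →* Y) fun y =>
          (hfix y).1 (by rw [hσc, hc1]; simp)
        have h2 : fixedSubgroup α = ⊤ := eq_top_iff.2 fun y _ => h1 y
        rw [h2] at hL
        rcases hY.eq_top_or_le_center (subnormalIn_top_iff.1 hL.subnormalIn) with h | h
        · exact hne h
        · exact hLZ h
      · have hcc : c * c = 1 := by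
          have : c * c ∈ center (Y ⧸ center Y) := mem_center_iff.2 fun x => by
            have h1 := congrArg (fun β : MulAut (Y ⧸ center Y) => β x) hσσ
            simp only [MulAut.mul_apply, MulAut.one_apply, hσc] at h1
            calc x * (c * c) = c * (c * x * c⁻¹) * c⁻¹ * (c * c) := by rw [h1]
              _ = c * c * x := by group
          rwa [hZ, mem_bot] at this
        have hF : ∀ x, σ x = x → x ∈ C1 c := fun x hx =>
          mem_C1.2 (comm_of_conj_eq ((hσc x).symm.trans hx)).symm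
        refine key c (orderOf_eq_prime (by rw [pow_two, hcc]) hc1) (by rw [hσc]; group) ?_ ?_
        · intro x hx
          exact hF x (hfV x (map_mono h0 hx))
        · intro x hx
          exact hF x (hM.le hx)
    · have hW : L ⊓ CC L ≤ center Y := by
        by_contra hW
        have h2 : IsPGroup 2 (L ⊓ CC L : Subgroup Y) := by
          rw [← map_center_subtype]; exact hl2.map _
        have hne : (L ⊓ CC L).map π ≠ ⊥ := fun h => hW fun x hx =>
          (hπ1 x).1 ((mem_bot).1 (h ▸ mem_map_of_mem π hx))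
        obtain ⟨y, hy, hy2⟩ := exists_inv_of_ne_bot (h2.map π) hne
        have hnW : S ≤ NN (L ⊓ CC L) := by
          refine bar_le_NN ?_
          intro s hs x hx
          refine mem_inf.2 ⟨(mem_normalizer_iff.1 (hn hs) x).1 hx.1, ?_⟩
          exact (mem_normalizer_iff.1 (normalizer_le_normalizer_centralizer L (hn hs)) x).1 hx.2
        obtain ⟨b, hb, hb2, hbc⟩ := exists_inv_fixed (((hU.two.to_le h0)).map π)
          ((map_mono hnW).trans (le_normalizer_map π)) hy hy2
        obtain ⟨w, hw, rfl⟩ := hb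
        refine key (π w) hb2 (hM.le (mem_map_of_mem π hw.1)) (fun x hx => mem_C1.2 (hbc x hx)) ?_
        rintro _ ⟨s, hs, rfl⟩
        exact mem_C1.2 ((comm_of_CC hw.2 hs).map π)
      let f : L →* Y ⧸ center Y := π.comp L.subtype
      have hk : f.ker = center L := by
        ext x
        rw [MonoidHom.mem_ker]
        change π x = 1 ↔ _
        rw [hπ1]
        constructor
        · intro h
          exact mem_center_iff.2 fun g => Subtype.ext (mem_center_iff.1 h g)
        · intro h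
          exact hW (mem_inf.2 ⟨x.2, mem_CC.2 fun k hk =>
            congrArg Subtype.val (mem_center_iff.1 h ⟨k, hk⟩)⟩)
      have hr : f.range = L.map π := by
        rw [MonoidHom.range_comp, range_subtype]
      have e : L.map π ≃* L ⧸ center L :=
        (MulEquiv.subgroupCongr hr.symm).trans ((QuotientGroup.quotientKerEquivRange f).symm.trans
          (QuotientGroup.quotientMulEquivOfEq hk))
      exact ka V σ hσσ hin hfV _ hM (hl.of_equiv e)
        (hrel _ ((map_mono hn).trans (le_normalizer_map π)))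

theorem bar {G : Type*} [Group G] [Finite G] {J L U S : Subgroup G} {z : G} (hJ : IsQuasisimple J)
    (h2 : IsPGroup 2 (center J)) (ka : KA (J ⧸ center J)) (kb : KB (J ⧸ center J)) (hz : z * z = 1)
    (hzJ : z ∈ NN J) (hL : IsComponentOf L (J ⊓ C1 z)) (hne : L ≠ J) (hl : Lst (L ⧸ center L))
    (hl2 : IsPGroup 2 (center L)) (hU : Syl U J) (h0 : S ≤ U) (hi : S.relIndex U ≤ 2)
    (hc : S ≤ C1 z) (hn : S ≤ NN L) :
    (∀ b ∈ S, b * b = 1 → b ∈ CC S → b ∈ CC L → b ∈ CC J) ∧ ∃ s ∈ U, ⁅z, s⁆ ∉ CC J := by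
  obtain ⟨α, hα⟩ : ∃ α : MulAut J, ∀ y : J, (α y : G) = z * y * z⁻¹ :=
    ⟨J.normalizerMonoidHom ⟨z, hzJ⟩, fun _ => rfl⟩
  have hαα : α * α = 1 := by
    ext y
    rw [MulAut.mul_apply, hα, hα, MulAut.one_apply]
    calc z * (z * y * z⁻¹) * z⁻¹ = (z * z) * y * (z * z)⁻¹ := by group
      _ = y := by rw [hz]; simp
  have hLJ : L ≤ J := hL.le.trans inf_le_left
  have hSJ : S ≤ J := h0.trans hU.le
  have hF : fixedSubgroup α = (J ⊓ C1 z).subgroupOf J := by
    ext y
    change α y = y ↔ _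
    rw [mem_subgroupOf, mem_inf, mem_C1, Subtype.ext_iff, hα]
    exact ⟨fun h => ⟨y.2, (comm_of_conj_eq h).symm⟩, fun h => conj_eq_of_comm h.2.symm⟩
  have e : L.subgroupOf J ≃* L := subgroupOfEquivOfLe hLJ
  have hcen : ∀ y : J, y ∈ center J ↔ (y : G) ∈ CC J := fun y => by
    rw [← centralizer_subgroupOf_self, mem_subgroupOf]
  have hCC : ∀ (A : Subgroup G) (y : J), (y : G) ∈ CC A → y ∈ CC (A.subgroupOf J) :=
    fun A y hy => mem_CC.2 fun k hk => Subtype.ext (comm_of_CC hy (mem_subgroupOf.1 hk)).eq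
  obtain ⟨r1, s, hs, r2⟩ := bar0 (L := L.subgroupOf J) (U := U.subgroupOf J) (S := S.subgroupOf J)
    hJ ka kb hαα (hF ▸ hL.subgroupOf inf_le_left)
    (fun h => hne (le_antisymm hLJ (subgroupOf_eq_top.1 h)))
    (hl.of_equiv (QuotientGroup.congr _ _ e (bar_map_center e)))
    (hl2.of_equiv (centerCongr e).symm)
    ⟨le_top, hU.two.of_equiv (subgroupOfEquivOfLe hU.le).symm, by
      rw [relIndex_top_right]; exact hU.idx⟩
    (fun x hx => h0 hx) (by rw [relIndex_subgroupOf hU.le]; exact hi)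
    (by rw [hF]; exact fun x hx => mem_inf.2 ⟨x.2, hc hx⟩)
    (by
      refine bar_le_NN ?_
      intro x hx y hy
      exact (mem_normalizer_iff.1 (hn hx) y).1 hy)
  refine ⟨fun b hb hbb hbS hbL => ?_, s, hs, fun h => r2 ((hcen _).2 ?_)⟩
  · exact (hcen ⟨b, hSJ hb⟩).1 (r1 ⟨b, hSJ hb⟩ hb (Subtype.ext hbb) (hCC S _ hbS) (hCC L _ hbL))
  · rw [Subgroup.coe_mul, Subgroup.coe_inv, hα]
    exact h

end Cfsg.Agent.QE
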