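import Mathlib
import Cfsg.Agent.QE.Defs
import Cfsg.Agent.GT.PGroupRank
import Cfsg.Agent.GT.PElementClosure
import Cfsg.Agent.GT.Components

/-! # S1848, piece QE-Bas: pairs of simple groups, basic facts (proof in stubs/Cfsg/Agent/QE/PLAN.md) -/

set_option autoImplicit false
set_option linter.unusedVariables false

namespace Cfsg.Agent.QE

open Cfsg Subgroup Cfsg.Agent.GT Cfsg.Agent.Inv Cfsg.Agent.Cmp
open scoped commutatorElement

universe u

variable {G : Type*} [Group G] [Finite G] {q : ℕ} {P : Subgroup G → Subgroup G → Prop}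
  {A B M N : Subgroup G}

theorem TyG.pc (h : TyG q M) {D : Subgroup G} (hD : ⁅D, D⁆ = D) (hn : D ≤ NN M) {x : G} (hx : x ∈ M)
    (h2 : orderOf x = 2) (hc : D ≤ C1 x) : D ≤ CC M := by
  have h1 : D ≤ M ⊔ CC M := by
    rw [← hD, commutator_le]
    intro a ha b hb
    obtain ⟨m, hm, k⟩ := h.outc a (hn ha) b (hn hb)
    simpa using mul_mem (mem_sup_right k) (mem_sup_left hm)
  rw [← pResidualOf_eq_self_of_perfect Nat.prime_two hD, pResidualOf_eq_closure, closure_le]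
  rintro d ⟨hd, od⟩
  obtain ⟨a, ha, c, hc', rfl⟩ := exists_mul_of_mem_sup (CC_le_NN M) (h1 hd)
  have k1 : (a * c) ^ orderOf (a * c) = 1 := pow_orderOf_eq_one _
  rw [(comm_of_CC hc' ha).mul_pow] at k1
  have k2 : a ^ orderOf (a * c) ∈ M ⊓ CC M :=
    mem_inf.2 ⟨pow_mem ha _, by rw [eq_inv_of_mul_eq_one_left k1]; exact inv_mem (pow_mem hc' _)⟩
  rw [h.zen, mem_bot] at k2
  have k3 : Commute x a := by
    have := (mem_C1.1 (hc hd)).symm.mul_right (comm_of_CC hc' hx).inv_right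
    rwa [mul_inv_cancel_right] at this
  rw [h.ci x hx a ha h2 k3 ((Nat.coprime_two_right.1 od).of_dvd_nat (orderOf_dvd_of_pow_eq_one k2)), one_mul]
  exact hc'

theorem TyG.rk_aux (hQ : IsQuasithin G) (h : TyG q A) {E H : Subgroup G} (hE : E ≤ A) (hH : H ≤ A)
    (e : IsElementaryAbelian 2 E) (e1 : E ≠ ⊥) (hn : H ≤ NN E) {p : ℕ} (hp : p.Prime) (h2 : p ≠ 2)
    (hd : p ∣ Nat.card H) : PRankLE p 1 (CC A) := by
  have := Fact.mk hp
  refine PG.pRankLE_subgroup_iff.2 fun Y hY eY => ?_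
  obtain ⟨⟨y, hy⟩, oy⟩ := exists_prime_orderOf_dvd_card' p hd
  rw [orderOf_mk] at oy
  have yc : y ∈ CC Y := le_centralizer_iff.1 hY (hH hy)
  have k := (hQ p hp h2 (NN E) ⟨E, e.isPGroup, e1, rfl⟩).card_le_of_le
    (sup_le (hY.trans ((centralizer_le hE).trans (CC_le_NN E))) (zpowers_le.2 (hn hy)))
    (eY.sup_zpowers (oy ▸ pow_orderOf_eq_one y) yc)
  rw [PG.card_sup_of_inf_eq_bot ((le_centralizer_iff.1 (zpowers_le.2 yc)).trans (CC_le_NN _))
    (eq_bot_iff.2 (h.zen ▸ le_inf (inf_le_right.trans (zpowers_le.2 (hH hy))) (inf_le_left.trans hY))),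
    Nat.card_zpowers, oy, pow_succ] at k
  exact Nat.le_of_mul_le_mul_right k hp.pos

theorem TyG.rk (hQ : IsQuasithin G) (h : TyG q A) :
    ∃ p : ℕ, p.Prime ∧ p ≠ 2 ∧ p ∣ Nat.card A ∧ PRankLE p 1 (CC A) := by
  obtain ⟨e, he, e2⟩ := h.inv
  obtain ⟨E, H, eE, hE, hH, el, cE, oH, hn, tr, -⟩ := h.ex e he e2
  have e1 : e ≠ 1 := fun k => by rw [k, orderOf_one] at e2; omega
  have h1 : Nat.card H ≠ 1 := fun k => by
    have : E ≤ zpowers e := fun b hb => by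
      by_cases b1 : b = 1
      · exact b1 ▸ one_mem _
      obtain ⟨x, hx, k2⟩ := tr e eE b hb e1 b1
      rw [card_eq_one.1 k, mem_bot] at hx
      rw [← k2, hx, one_mul, inv_one, mul_one]
      exact mem_zpowers e
    have := card_le_of_le this
    have := h.q4
    rw [Nat.card_zpowers] at *
    omega
  obtain ⟨p, hp, hd⟩ := Nat.exists_prime_and_dvd h1
  have h2 : p ≠ 2 := fun k => (Nat.not_even_iff_odd.2 oH) (even_iff_two_dvd.2 (k ▸ hd))
  exact ⟨p, hp, h2, hd.trans (card_dvd_of_le hH),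
    h.rk_aux hQ hE hH el (fun k => e1 (mem_bot.1 (k ▸ eE))) hn hp h2 hd⟩

theorem TyG.rk3 (hQ : IsQuasithin G) (h : TyG q A) {x : G} (hx : x ∈ NN A) (h2 : x * x ∈ CC A)
    (hi : ¬ In A x) : PRankLE 3 1 (CC A) := by
  obtain ⟨e, he, e2⟩ := h.inv
  obtain ⟨E, H, eE, hE, hH, el, -, -, hn, -, k⟩ := h.ex e he e2
  have e1 : e ≠ 1 := fun k => by rw [k, orderOf_one] at e2; omega
  exact h.rk_aux hQ hE hH el (fun k => e1 (mem_bot.1 (k ▸ eE))) hn Nat.prime_three (by norm_num)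
    (k.resolve_right fun k => hi (k x hx h2))

theorem not_rk {p : ℕ} (hp : p.Prime) {C : Subgroup G} (hn : A ≤ NN N) (hd : A ⊓ N = ⊥)
    (h1 : p ∣ Nat.card A) (h2 : p ∣ Nat.card N) (hA : A ≤ C) (hN : N ≤ C) : ¬ PRankLE p 1 C := fun h => by
  have := Fact.mk hp
  obtain ⟨⟨a, ha⟩, oa⟩ := exists_prime_orderOf_dvd_card' p h1
  rw [orderOf_mk] at oa
  have ea : IsElementaryAbelian p (zpowers a) := .zpowers (oa ▸ pow_orderOf_eq_one a)
  obtain ⟨⟨b, hb⟩, ob⟩ := exists_prime_orderOf_dvd_card' p ((Nat.ModEq.dvd_iff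
    (card_modEq_card_inf_centralizer ea.isPGroup (zpowers_le.2 (hn ha))) dvd_rfl).1 h2)
  rw [orderOf_mk] at ob
  have k := h.card_le_of_le (sup_le (zpowers_le.2 (hA ha)) (zpowers_le.2 (hN hb.1)))
    (ea.sup_zpowers (ob ▸ pow_orderOf_eq_one b) hb.2)
  rw [PG.card_sup_of_inf_eq_bot ((le_centralizer_iff.1 (zpowers_le.2 hb.2)).trans (CC_le_NN _))
    (eq_bot_iff.2 (hd ▸ inf_le_inf (zpowers_le.2 ha) (zpowers_le.2 hb.1))), Nat.card_zpowers, Nat.card_zpowers,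
    oa, ob, pow_one] at k
  have := hp.one_lt
  nlinarith

theorem Fm.card_eq (h : Fm q P) (hAB : P A B) (hMN : P M N) : Nat.card M = Nat.card A := by
  obtain ⟨g, rfl, -⟩ := h.trans hAB hMN
  exact card_map_conj _ _

theorem Fm.ti0 (h : Fm q P) (hQ : IsQuasithin G) (hAB : P A B) (hMN : P M N) {e : G} (ha : e ∈ A)
    (hm : e ∈ M) (h2 : orderOf e = 2) : N = B := by
  by_contra ne
  have e1 : e ≠ 1 := fun k => by rw [k, orderOf_one] at h2; omega
  have cN := h.comp hMN e hm h2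
  have h1 : N ≤ CC B := cN.le_centralizer_of_ne (h.comp hAB e ha h2) ne
  obtain ⟨v, hv, v2⟩ := (h.ty (h.symm hAB)).inv
  have cA := h.comp (h.symm hAB) v hv v2
  have h3 : N ≤ NN A := fun n hn => by
    by_contra k
    have k1 := (cA.map_conj (le_normalizer (mem_C1.2 (comm_of_CC (h1 hn) hv).symm))).le_centralizer_of_ne cA
      fun e => k (map_conj_eq_self_iff.1 e)
    have k2 : e ∈ A ⊓ CC A := ⟨ha, k1 (conj_eq_of_comm (mem_C1.1 (cN.le hn)) ▸ conj_mem_map_conj.2 ha)⟩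
    rw [(h.ty hAB).zen, mem_bot] at k2
    exact e1 k2
  have h4 := (h.ty hAB).pc cN.commutator_eq h3 ha h2 cN.le
  obtain ⟨p, hp, -, hd, hr⟩ := (h.ty (h.symm hAB)).rk hQ
  exact not_rk hp ((le_centralizer_iff.1 h4).trans (CC_le_NN N))
    (eq_bot_iff.2 ((h.ty hAB).zen ▸ inf_le_inf_left A h4)) (h.card_eq (h.symm hAB) hAB ▸ hd)
    (h.card_eq (h.symm hAB) (h.symm hMN) ▸ hd) (h.comm (h.symm hAB)) h1 hr

theorem Fm.ti (h : Fm q P) (hQ : IsQuasithin G) (hAB : P A B) (hMN : P M N) {e : G} (ha : e ∈ A)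
    (hm : e ∈ M) (h2 : orderOf e = 2) : M = A ∧ N = B := by
  obtain rfl := h.ti0 hQ hAB hMN ha hm h2
  obtain ⟨v, hv, v2⟩ := (h.ty (h.symm hAB)).inv
  exact ⟨h.ti0 hQ (h.symm hAB) (h.symm hMN) hv hv v2, rfl⟩

theorem Fm.cen (h : Fm q P) (hQ : IsQuasithin G) (hAB : P A B) {e : G} (ha : e ∈ A)
    (h2 : orderOf e = 2) : C1 e ≤ NN A ⊓ NN B := fun c hc => by
  obtain ⟨h3, h4⟩ := h.ti hQ hAB (h.conj c hAB) ha (conj_eq_of_comm (mem_C1.1 hc) ▸ conj_mem_map_conj.2 ha) h2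
  exact ⟨map_conj_eq_self_iff.1 h3, map_conj_eq_self_iff.1 h4⟩

theorem Fm.c1 (h : Fm q P) (hQ : IsQuasithin G) (hAB : P A B) (hMN : P M N) {x : G} (hm : x ∈ M)
    (h2 : orderOf x = 2) (hc : x ∈ CC A) : M = B ∧ N = A := by
  have h1 : A ≤ C1 x := fun a ha => mem_C1.2 (comm_of_CC hc ha)
  have h3 := h1.trans (h.cen hQ hMN hm h2)
  have h4 := (h.ty hMN).pc (h.ty hAB).qs.commutator_eq (h3.trans inf_le_left) hm h2 h1
  obtain ⟨p, hp, -, hd, hr⟩ := (h.ty hMN).rk hQ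
  have h5 : A ⊓ N = A := ((h.ty hAB).sim _ inf_le_left fun a ha =>
    inf_normalizer_le_normalizer_inf (mem_inf.2 ⟨le_normalizer ha, (h3 ha).2⟩)).resolve_left fun e =>
      not_rk hp (h3.trans inf_le_right) e (h.card_eq hMN hAB ▸ hd) (h.card_eq hMN (h.symm hMN) ▸ hd) h4
        (h.comm hMN) hr
  obtain rfl : A = N := eq_of_le_of_card_ge (inf_eq_left.1 h5) (h.card_eq hAB (h.symm hMN)).le
  obtain ⟨v, hv, v2⟩ := (h.ty hAB).inv
  exact ⟨h.ti0 hQ hAB (h.symm hMN) hv hv v2, rfl⟩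

end Cfsg.Agent.QE
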