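import Mathlib
import Cfsg.Agent.QE.Defs
import Cfsg.Agent.QE.Bas

/-! # S1848, piece QE-II: an involution acting as an inner automorphism on both factors (proof in stubs/Cfsg/Agent/QE/PLAN.md) -/

set_option autoImplicit false
set_option linter.unusedVariables false

namespace Cfsg.Agent.QE

open Cfsg Subgroup Cfsg.Agent.GT Cfsg.Agent.Inv Cfsg.Agent.Cmp
open scoped commutatorElement

universe u

variable {G : Type*} [Group G] [Finite G] {q : ℕ} {P : Subgroup G → Subgroup G → Prop}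
  {A B M N : Subgroup G}

omit [Finite G] in
theorem ii_conj (c : B ≤ CC A) {k g₁ g₂ u₁ u₂ : G} (ka : k ∈ CC A) (kb : k ∈ CC B) (h1 : g₁ ∈ A)
    (h2 : g₂ ∈ B) (a1 : u₁ ∈ A) (a2 : u₂ ∈ B) :
    g₁ * g₂ * (k * u₁ * u₂) * (g₁ * g₂)⁻¹ = k * (g₁ * u₁ * g₁⁻¹) * (g₂ * u₂ * g₂⁻¹) := by
  have e1 : g₂ * (k * u₁) * g₂⁻¹ = k * u₁ :=
    conj_eq_of_comm ((comm_of_CC kb h2).mul_right (comm_of_CC (c h2) a1).symm)
  have e2 : g₁ * (g₂ * u₂ * g₂⁻¹) * g₁⁻¹ = g₂ * u₂ * g₂⁻¹ :=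
    conj_eq_of_comm (comm_of_CC (c (mul_mem (mul_mem h2 a2) (inv_mem h2))) h1)
  calc _ = g₁ * (g₂ * (k * u₁) * g₂⁻¹) * g₁⁻¹ * (g₁ * (g₂ * u₂ * g₂⁻¹) * g₁⁻¹) := by group
    _ = g₁ * k * g₁⁻¹ * (g₁ * u₁ * g₁⁻¹) * (g₂ * u₂ * g₂⁻¹) := by rw [e1, e2]; group
    _ = _ := by rw [conj_eq_of_comm (comm_of_CC ka h1)]

omit [Finite G] in
theorem ii_sq (h : TyG q A) {x a : G} (ha : a ∈ A) (hc : x * a⁻¹ ∈ CC A) (h2 : x * x = 1) :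
    a * a = 1 := by
  have e : x * a⁻¹ * (x * a⁻¹) * (a * a) = 1 := by
    calc _ = x * a⁻¹ * (x * a⁻¹ * a) * a := by group
      _ = x * a⁻¹ * (a * (x * a⁻¹)) * a := by rw [(comm_of_CC hc ha).eq]
      _ = x * x := by group
      _ = 1 := h2
  have : a * a ∈ A ⊓ CC A :=
    mem_inf.2 ⟨mul_mem ha ha, by rw [eq_inv_of_mul_eq_one_right e]; exact inv_mem (mul_mem hc hc)⟩
  rwa [h.zen, mem_bot] at this

theorem ii_four {Y E₁ E₂ : Subgroup G} (h4 : 4 ≤ Nat.card Y) (h1 : ∀ y ∈ Y, y ∈ E₁ → y = 1)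
    (h2 : ∀ y ∈ Y, y ∈ E₂ → y = 1) (a b : G) : ∃ y ∈ Y, y ≠ 1 ∧ a * y ∉ E₂ ∧ b * y ∉ E₁ := by
  by_contra! l
  have k : ∀ (E : Subgroup G) (c : G), (∀ y ∈ Y, y ∈ E → y = 1) →
      {y | y ∈ Y ∧ c * y ∈ E}.ncard ≤ 1 := fun E c hE => by
    refine (Set.ncard_le_one (Set.toFinite _)).2 fun y hy y' hy' => ?_
    refine inv_mul_eq_one.1 (hE _ (mul_mem (inv_mem hy.1) hy'.1) ?_)
    simpa [mul_assoc] using mul_mem (inv_mem hy.2) hy'.2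
  have s : (Y : Set G) ⊆ {1} ∪ ({y | y ∈ Y ∧ a * y ∈ E₂} ∪ {y | y ∈ Y ∧ b * y ∈ E₁}) := fun y hy => by
    by_cases y1 : y = 1
    · exact Or.inl y1
    by_cases y2 : a * y ∈ E₂
    · exact Or.inr (Or.inl ⟨hy, y2⟩)
    · exact Or.inr (Or.inr ⟨hy, l y hy y1 y2⟩)
  have c1 := Set.ncard_le_ncard s
  have c2 := Set.ncard_union_le {(1 : G)} ({y | y ∈ Y ∧ a * y ∈ E₂} ∪ {y | y ∈ Y ∧ b * y ∈ E₁})
  have c3 := Set.ncard_union_le {y | y ∈ Y ∧ a * y ∈ E₂} {y | y ∈ Y ∧ b * y ∈ E₁}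
  have c4 := k E₂ a h2
  have c5 := k E₁ b h1
  rw [Set.ncard_singleton] at c2
  rw [← Nat.card_coe_set_eq] at c1
  change Nat.card Y ≤ _ at c1
  omega

theorem Fm.ii (h : Fm q P) (hQ : IsQuasithin G) (hAB : P A B) (hMN : P M N) {x : G} (hm : x ∈ M)
    (h2 : orderOf x = 2) (ia : In A x) (ib : In B x) : M = A ∨ M = B := by
  by_contra! ne
  have hBA := h.symm hAB
  have hNM := h.symm hMN
  have tA := h.ty hAB
  have tB := h.ty hBA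
  have cB := h.comm hAB
  have cA := h.comm hBA
  have nA : N ≠ A := fun e => by
    obtain ⟨v, hv, v2⟩ := tA.inv
    exact ne.2 (h.ti hQ hAB hNM hv (e ▸ hv) v2).2
  have nB : N ≠ B := fun e => by
    obtain ⟨v, hv, v2⟩ := tB.inv
    exact ne.1 (h.ti hQ hBA hNM hv (e ▸ hv) v2).2
  obtain ⟨a, ha, ca⟩ := ia
  obtain ⟨b, hb, cb⟩ := ib
  have x2 := mul_self_of_two h2
  have a2 := orderOf_two_of (ii_sq tA ha ca x2) fun e =>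
    ne.2 (h.c1 hQ hAB hMN hm h2 (by simpa [e] using ca)).1
  have b2 := orderOf_two_of (ii_sq tB hb cb x2) fun e =>
    ne.1 (h.c1 hQ hBA hMN hm h2 (by simpa [e] using cb)).1
  have ka : x * a⁻¹ * b⁻¹ ∈ CC A := mul_mem ca (cB (inv_mem hb))
  have kb : x * a⁻¹ * b⁻¹ ∈ CC B := by
    rw [mul_assoc, (comm_of_CC (cB hb) ha).inv_inv.eq, ← mul_assoc]
    exact mul_mem cb (cA (inv_mem ha))
  have ex : x = x * a⁻¹ * b⁻¹ * a * b := by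
    rw [mul_assoc (x * a⁻¹), ← (comm_of_CC (cB hb) ha).inv_right.eq]; group
  generalize x * a⁻¹ * b⁻¹ = k at ka kb ex
  obtain ⟨E₁, H₁, aE, EA, HA, e1, c1, o1, -, t1, -⟩ := tA.ex a ha a2
  obtain ⟨E₂, H₂, bE, EB, HB, e2, c2, o2, -, t2, -⟩ := tB.ex b hb b2
  have c21 : E₂ ≤ CC E₁ := (EB.trans cB).trans (centralizer_anti EA)
  have el := e1.sup e2 c21
  have cE : Nat.card (E₁ ⊔ E₂ : Subgroup G) = q * q := by
    rw [PG.card_sup_of_inf_eq_bot ((le_centralizer_iff.1 c21).trans (CC_le_NN _))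
      (eq_bot_iff.2 (tA.zen ▸ inf_le_inf EA (EB.trans cB))), c1, c2]
  have Ex : E₁ ⊔ E₂ ≤ C1 x := fun y hy => mem_C1.2 <| by
    rw [ex]
    refine (Commute.mul_right ?_ (el.comm hy (mem_sup_left aE))).mul_right (el.comm hy (mem_sup_right bE))
    refine comm_of_CC ?_ hy
    rw [CC, centralizer_sup]
    exact ⟨centralizer_anti EA ka, centralizer_anti EB kb⟩
  have EN := Ex.trans (h.cen hQ hMN hm h2)
  have q0 : 0 < q := by have := tA.q4; omega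
  have big : ∀ {U W : Subgroup G}, P U W → E₁ ⊔ E₂ ≤ NN U → W ≠ A → W ≠ B →
      4 ≤ Nat.card ((E₁ ⊔ E₂) ⊓ CC U : Subgroup G) ∧
      (∀ y ∈ (E₁ ⊔ E₂) ⊓ CC U, y ∈ E₁ → y = 1) ∧ ∀ y ∈ (E₁ ⊔ E₂) ⊓ CC U, y ∈ E₂ → y = 1 := by
    intro U W hUW hn n1 n2
    have := (h.ty hUW).bd _ hn el
    rw [cE] at this
    refine ⟨tA.q4.trans (Nat.le_of_mul_le_mul_left this q0), fun y hy y1 => by_contra fun y0 => ?_,
      fun y hy y1 => by_contra fun y0 => ?_⟩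
    · exact n1 (h.c1 hQ hUW hAB (EA y1) (e1.orderOf_eq y1 y0) hy.2).1.symm
    · exact n2 (h.c1 hQ hUW hBA (EB y1) (e2.orderOf_eq y1 y0) hy.2).1.symm
  have dec : ∀ y ∈ E₁ ⊔ E₂, ∃ y₁ ∈ E₁, ∃ y₂ ∈ E₂, y₁ * y₂ = y := fun y hy =>
    exists_mul_of_mem_sup (c21.trans (CC_le_NN _)) hy
  obtain ⟨Y4, Y1, Y2⟩ := big hNM (EN.trans inf_le_right) ne.1 ne.2
  obtain ⟨Z4, Z1, Z2⟩ := big hMN (EN.trans inf_le_left) nA nB
  obtain ⟨y, hy, y0, ya, yb⟩ := ii_four Y4 Y1 Y2 a b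
  obtain ⟨y₁, m1, y₂, m2, rfl⟩ := dec y hy.1
  have cy : ∀ {u v : G}, u ∈ E₁ → v ∈ E₂ → u * v = v * u := fun hu hv => comm_of_CC (c21 hv) hu
  have yM : y₁ * y₂ ∈ M := by
    obtain ⟨g₁, g1, f1⟩ := t1 a aE (a * y₁) (mul_mem aE m1) (ne_one_of_two a2) fun e =>
      ya (by rwa [← mul_assoc, e, one_mul])
    obtain ⟨g₂, g2, f2⟩ := t2 b bE (b * y₂) (mul_mem bE m2) (ne_one_of_two b2) fun e =>
      yb (by rwa [cy m1 m2, ← mul_assoc, e, one_mul])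
    have e : g₁ * g₂ * x * (g₁ * g₂)⁻¹ = x * (y₁ * y₂) := by
      rw [ex, ii_conj cB ka kb (HA g1) (HB g2) ha hb, f1, f2]
      calc _ = k * a * (y₁ * b) * y₂ := by group
        _ = _ := by rw [cy m1 bE]; group
    have m : x * (y₁ * y₂) ∈ M ^ᶜ (g₁ * g₂) := e ▸ conj_mem_map_conj.2 hm
    rw [(h.c1 hQ hNM (h.conj (g₁ * g₂) hMN) m (by rw [← e, orderOf_conj', h2])
      (mul_mem (h.comm hNM hm) hy.2)).1] at m
    exact (mul_mem_cancel_left hm).1 m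
  obtain ⟨z, hz, z0, -, -⟩ := ii_four Z4 Z1 Z2 a b
  obtain ⟨z₁, n1, z₂, n2, rfl⟩ := dec z hz.1
  obtain ⟨g₁, g1, f1⟩ := t1 y₁ m1 z₁ n1 (fun e => y0 (Y2 _ hy (by rwa [e, one_mul])))
    fun e => z0 (Z2 _ hz (by rwa [e, one_mul]))
  obtain ⟨g₂, g2, f2⟩ := t2 y₂ m2 z₂ n2 (fun e => y0 (Y1 _ hy (by rwa [e, mul_one])))
    fun e => z0 (Z1 _ hz (by rwa [e, mul_one]))
  have e : g₁ * g₂ * (y₁ * y₂) * (g₁ * g₂)⁻¹ = z₁ * z₂ := by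
    have := ii_conj cB (one_mem _) (one_mem _) (HA g1) (HB g2) (EA m1) (EB m2)
    rwa [one_mul, one_mul, f1, f2] at this
  obtain ⟨s1, s2⟩ := h.c1 hQ hMN (h.conj (g₁ * g₂) hMN) (e ▸ conj_mem_map_conj.2 yM)
    (el.orderOf_eq hz.1 z0) hz.2
  have s3 : (g₁ * g₂) ^ 2 ∈ NN M := by
    rw [← map_conj_eq_self_iff, sq, map_conj_mul, s1, s2]
  obtain ⟨j, hj⟩ := o1.mul o2
  have s4 : (g₁ * g₂) ^ (2 * j + 1) = 1 := by
    have p1 : g₁ ^ Nat.card H₁ = 1 := congrArg Subtype.val (pow_card_eq_one' (x := (⟨g₁, g1⟩ : H₁)))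
    have p2 : g₂ ^ Nat.card H₂ = 1 := congrArg Subtype.val (pow_card_eq_one' (x := (⟨g₂, g2⟩ : H₂)))
    rw [← hj, (comm_of_CC (cB (HB g2)) (HA g1)).mul_pow, pow_mul, p1, one_pow, one_mul, mul_comm,
      pow_mul, p2, one_pow]
  rw [pow_succ, pow_mul] at s4
  have s5 : g₁ * g₂ ∈ NN M := by
    rw [eq_inv_of_mul_eq_one_right s4]
    exact inv_mem (pow_mem s3 j)
  rw [map_conj_eq_self_iff.2 s5] at s1
  have : x ∈ M ⊓ CC M := ⟨hm, h.comm hMN (s1 ▸ hm)⟩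
  rw [(h.ty hMN).zen, mem_bot] at this
  exact ne_one_of_two h2 this

end Cfsg.Agent.QE
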