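import Mathlib
import Cfsg.Agent.QE.Defs
import Cfsg.Agent.QE.Bas
import Cfsg.Agent.QE.II

/-! # S1848, piece QE-CB: claim B, simple case (proof in stubs/Cfsg/Agent/QE/PLAN.md) -/

set_option autoImplicit false
set_option linter.unusedVariables false

namespace Cfsg.Agent.QE

open Cfsg Subgroup Cfsg.Agent.GT Cfsg.Agent.Inv Cfsg.Agent.Cmp
open scoped commutatorElement

universe u

variable {G : Type*} [Group G] [Finite G] {q : ℕ} {P : Subgroup G → Subgroup G → Prop}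
  {A B M N : Subgroup G}

omit [Finite G] in
theorem cb_sq {x : G} (h2 : orderOf x = 2) : x * x = 1 := by rw [← pow_two, ← h2, pow_orderOf_eq_one]

omit [Finite G] in
theorem cb_ne {x : G} (h2 : orderOf x = 2) : x ≠ 1 := fun k => by rw [k, orderOf_one] at h2; omega

omit [Finite G] in
theorem cb_ord {x : G} (h : x * x = 1) (h1 : x ≠ 1) : orderOf x = 2 := orderOf_eq_prime (by rwa [pow_two]) h1

omit [Finite G] in
theorem TyG.cb_pow (h : TyG q A) {a c : G} (ha : a ∈ A) (hc : c ∈ CC A) {n : ℕ} (e : (c * a) ^ n = 1) : a ^ n = 1 := by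
  rw [(comm_of_CC hc ha).symm.mul_pow] at e
  exact mem_bot.1 (h.zen ▸ mem_inf.2
    ⟨pow_mem ha _, by rw [eq_inv_of_mul_eq_one_right e]; exact inv_mem (pow_mem hc _)⟩)

omit [Finite G] in
theorem TyG.cb_three (h : TyG q M) {x ρ e : G} (hm : x ∈ M) (h2 : orderOf x = 2) (h3 : orderOf ρ = 3)
    (hi : e * ρ * e⁻¹ = ρ⁻¹) (hc : Commute x ρ) (he : e ∈ NN M) (hρ : ρ ∈ NN M) : ρ ∈ CC M := by
  have k : ρ ^ 3 = 1 := h3 ▸ pow_orderOf_eq_one ρ
  obtain ⟨m, hm', c⟩ := h.outc e he ρ hρ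
  rw [commutatorElement_def, hi, show ρ⁻¹ * ρ⁻¹ = ρ by
    rw [← mul_inv_rev, inv_eq_iff_mul_eq_one, ← k]; simp [pow_succ]] at c
  have k1 := h.cb_pow hm' c (n := 3) (by rwa [inv_mul_cancel_right])
  have k2 : Commute x m := by simpa using (comm_of_CC c hm).inv_right.mul_right hc
  rwa [h.ci x hm m hm' h2 k2 ((by decide : Odd 3).of_dvd_nat (orderOf_dvd_of_pow_eq_one k1)), inv_one, mul_one] at c

theorem Fm.cb_oo (h : Fm q P) (hQ : IsQuasithin G) (hAB : P A B) (hMN : P M N) {x : G} (hm : x ∈ M)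
    (h2 : orderOf x = 2) (na : x ∈ NN A) (nb : x ∈ NN B) (ia : ¬ In A x) (ib : ¬ In B x) : False := by
  have x2 := cb_sq h2
  have cn := fun {y : G} (e : Commute x y) => (h.cen hQ hMN hm h2 (mem_C1.2 e.symm)).1
  obtain ⟨ρ, hρ, e, he, o1, i1, c1, c2⟩ := (h.ty hAB).o3 x na (x2 ▸ one_mem _) ia
  obtain ⟨ρ', hρ', e', he', o1', i1', c1', c2'⟩ := (h.ty (h.symm hAB)).o3 x nb (x2 ▸ one_mem _) ib
  have k1 := (h.ty hMN).cb_three hm h2 o1 i1 c1 (cn c2) (cn c1)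
  have k2 := (h.ty hMN).cb_three hm h2 o1' i1' c1' (cn c2') (cn c1')
  obtain ⟨g, rfl, -⟩ := h.trans hAB hMN
  refine not_rk (A := zpowers ρ) (N := zpowers ρ') Nat.prime_three
    (zpowers_le.2 (CC_le_NN _ (le_centralizer_iff.1 ((zpowers_le.2 hρ').trans (h.comm hAB)) hρ)))
    (eq_bot_iff.2 ((h.ty hAB).zen ▸ inf_le_inf (zpowers_le.2 hρ) ((zpowers_le.2 hρ').trans (h.comm hAB))))
    (by rw [Nat.card_zpowers, o1]) (by rw [Nat.card_zpowers, o1']) (zpowers_le.2 k1) (zpowers_le.2 k2)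
    ((h.ty hMN).rk3 hQ (conj_mem_NN g na) (by rw [conj_mul, x2]; simp) fun i => ia ?_)
  have := i.conj g⁻¹
  rw [map_conj_inv_map_conj] at this
  simpa [mul_assoc] using this

theorem cb_prop {a b c d e f : Prop} (x1 : a ↔ ¬ d) (x2 : b ↔ ¬ e) (x3 : c ↔ ¬ f) (o1 : a ∨ b ∨ c) (o2 : d ∨ e ∨ f)
    (k1 : (a → b → c) ∧ (a → c → b) ∧ (c → b → a)) (k2 : (d → e → f) ∧ (d → f → e) ∧ (f → e → d)) : False := by
  by_cases d <;> by_cases e <;> by_cases f <;> simp_all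

theorem Fm.cb_nrm (h : Fm q P) (hQ : IsQuasithin G) (hAB : P A B) (hMN : P M N) {x : G} (hm : x ∈ M)
    (h2 : orderOf x = 2) (ia : In A x) : M = A ∨ M = B := by
  by_contra hc
  rw [not_or] at hc
  obtain ⟨a, ha, c⟩ := ia
  have a1 : a ≠ 1 := fun e => hc.2 (h.c1 hQ hAB hMN hm h2 (by simpa [e] using c)).1
  have a2 : a * a = 1 := by
    rw [← pow_two]
    exact (h.ty hAB).cb_pow ha c (by rw [inv_mul_cancel_right, pow_two, cb_sq h2])
  obtain ⟨E, -, aE, EA, -, el, cE, -⟩ := (h.ty hAB).ex a ha (cb_ord a2 a1)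
  have cm : ∀ y ∈ E, ∀ z ∈ E, Commute y z := fun y hy z hz => congrArg Subtype.val (el.1.1.1 ⟨y, hy⟩ ⟨z, hz⟩)
  have sq : ∀ y ∈ E, y * y = 1 := fun y hy => by rw [← pow_two]; exact el.2 y hy
  have nn : ∀ y ∈ E, y ∈ NN M ⊓ NN N := fun y hy => h.cen hQ hMN hm h2 (mem_C1.2 (by
    simpa using (comm_of_CC c (EA hy)).mul_right (cm y hy a aE)))
  have xor : ∀ y ∈ E, y ≠ 1 → (In M y ↔ ¬ In N y) := fun y hy y1 => by
    have o := cb_ord (sq y hy) y1
    refine ⟨fun i j => ?_, fun j => by_contra fun i => h.cb_oo hQ hMN hAB (EA hy) o (nn y hy).1 (nn y hy).2 i j⟩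
    rcases h.ii hQ hMN hAB (EA hy) o i j with e | e
    exacts [hc.1 e.symm, hc.2 (h.ti hQ hAB (h.symm hMN) (EA hy) (e ▸ EA hy) o).2]
  obtain ⟨e, eE, ea⟩ : ∃ e ∈ E, e ∉ zpowers a := SetLike.not_le_iff_exists.1 fun k => by
    have := card_le_of_le k
    have := (h.ty hAB).q4
    rw [Nat.card_zpowers, cb_ord a2 a1] at *
    omega
  have k : ∀ {X : Subgroup G}, (In X a → In X e → In X (a * e)) ∧ (In X a → In X (a * e) → In X e) ∧
      (In X (a * e) → In X e → In X a) := fun {X} => ⟨In.mul, fun i j => by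
    have := i.mul j
    rwa [← mul_assoc, a2, one_mul] at this, fun i j => by
    have := i.mul j
    rwa [mul_assoc, sq e eE, mul_one] at this⟩
  have x1 := xor a aE a1
  have x2 := xor e eE fun k => ea (k ▸ one_mem _)
  have x3 := xor _ (mul_mem aE eE) fun k => ea (eq_inv_of_mul_eq_one_right k ▸ inv_mem (mem_zpowers a))
  have o1 := (h.ty hMN).o1 a (nn a aE).1 e (nn e eE).1 (a2 ▸ one_mem _) (sq e eE ▸ one_mem _) (cm a aE e eE)
  have o2 := (h.ty (h.symm hMN)).o1 a (nn a aE).2 e (nn e eE).2 (a2 ▸ one_mem _) (sq e eE ▸ one_mem _)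
    (cm a aE e eE)
  exact cb_prop x1 x2 x3 o1 o2 k k

theorem Fm.cb_sw (h : Fm q P) (hQ : IsQuasithin G) (hAB : P A B) (hMN : P M N) {x : G} (hm : x ∈ M)
    (h2 : orderOf x = 2) (hx : A ^ᶜ x = B) : False := by
  have x2 := cb_sq h2
  have xi : x⁻¹ = x := inv_eq_of_mul_eq_one_right x2
  have cc : ∀ l ∈ A, x * l * x⁻¹ ∈ CC A := fun l hl => h.comm hAB (hx ▸ conj_mem_map_conj.2 hl)
  obtain ⟨φ, hφ⟩ : ∃ φ : A →* G, ∀ l, φ l = l * (x * l * x⁻¹) :=
    ⟨MonoidHom.mk' (fun l => l * (x * l * x⁻¹)) fun l l' => by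
      rw [(comm_of_CC (cc l l.2) l'.2).symm.mul_mul_mul_comm, conj_mul]; rfl, fun _ => rfl⟩
  have inj : Function.Injective φ := (injective_iff_map_eq_one φ).2 fun l e => Subtype.ext (mem_bot.1
    ((h.ty hAB).zen ▸ mem_inf.2 ⟨l.2, by rw [eq_inv_of_mul_eq_one_left ((hφ l).symm.trans e)]; exact inv_mem (cc l l.2)⟩))
  have d1 : φ.range ≤ C1 x := by
    rintro _ ⟨l, rfl⟩
    refine mem_C1.2 (comm_of_conj_eq ?_).symm
    rw [hφ, ← conj_mul, (comm_of_CC (cc l l.2) l.2).eq, xi]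
    simp only [← mul_assoc, x2, one_mul]
    simp only [mul_assoc, x2, mul_one]
  have d2 := d1.trans (h.cen hQ hMN hm h2)
  have d3 := (h.ty hMN).pc (D := φ.range) (by
    rw [MonoidHom.range_eq_map]; exact perfect_map (h.ty hAB).qs.commutator_eq_top φ)
    (d2.trans inf_le_left) hm h2 d1
  obtain ⟨p, hp, -, hd, hr⟩ := (h.ty hMN).rk hQ
  have : (N.comap φ).Normal := ⟨fun a ha g => by
    rw [mem_comap, map_mul, map_mul, map_inv]
    exact (mem_normalizer_iff.1 (d2 ⟨g, rfl⟩).2 _).1 ha⟩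
  have d4 : N.comap φ = ⊤ := ((h.ty hAB).qs.normal_eq_top_or_le_center _).resolve_right fun k => by
    refine not_rk hp (d2.trans inf_le_right) (eq_bot_iff.2 ?_) ?_ (h.card_eq hMN (h.symm hMN) ▸ hd) d3
      (h.comm hMN) hr
    · rintro _ ⟨⟨l, rfl⟩, hl⟩
      have : (l : G) ∈ A ⊓ CC A := map_center_subtype A ▸ mem_map_of_mem _ (k hl)
      rw [(h.ty hAB).zen, mem_bot] at this
      rw [hφ, this]
      simp
    · rwa [← Nat.card_congr (MonoidHom.ofInjective inj).toEquiv, h.card_eq hMN hAB]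
  obtain ⟨e, he, e2⟩ := (h.ty hAB).inv
  have dN : φ ⟨e, he⟩ ∈ N := d4.ge (mem_top _)
  have d1 : φ ⟨e, he⟩ ≠ 1 := fun k => cb_ne e2 (congrArg Subtype.val ((map_eq_one_iff φ inj).1 k))
  have d2 := cb_ord (by rw [← map_mul, show (⟨e, he⟩ : A) * ⟨e, he⟩ = 1 from Subtype.ext (cb_sq e2), map_one]) d1
  have eM := (h.cen hQ (h.symm hMN) dN d2 (mem_C1.2 (show Commute e _ by
    rw [hφ]; exact (Commute.refl e).mul_right (comm_of_CC (cc e he) he)))).2
  refine d1 (mem_bot.1 ((h.ty hMN).zen ▸ mem_inf.2 ⟨?_, h.comm hMN dN⟩))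
  have := mul_mem ((mem_normalizer_iff.1 eM _).1 hm) (inv_mem hm)
  rw [inv_eq_of_mul_eq_one_right (cb_sq e2)] at this
  simpa [hφ, mul_assoc] using this

theorem Fm.cb (h : Fm q P) (hQ : IsQuasithin G) (hAB : P A B) (hMN : P M N) {x : G} (hm : x ∈ M)
    (h2 : orderOf x = 2) (hx : x ∈ St2 A B) : M = A ∨ M = B := by
  rcases hx with ⟨e1, e2⟩ | ⟨e1, -⟩
  · by_cases ia : In A x
    · exact h.cb_nrm hQ hAB hMN hm h2 ia
    by_cases ib : In B x
    · exact (h.cb_nrm hQ (h.symm hAB) hMN hm h2 ib).symm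
    exact (h.cb_oo hQ hAB hMN hm h2 (map_conj_eq_self_iff.1 e1) (map_conj_eq_self_iff.1 e2) ia ib).elim
  · exact (h.cb_sw hQ hAB hMN hm h2 e1).elim

end Cfsg.Agent.QE
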