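import Mathlib
import Cfsg.Agent.QE.Defs
import Cfsg.Agent.GT.PGroupElemAb

/-! # S1848, piece QE-TyG: transport of Ty (proof in stubs/Cfsg/Agent/QE/PLAN.md) -/

set_option autoImplicit false
set_option linter.unusedVariables false

namespace Cfsg.Agent.QE

open Cfsg Subgroup Cfsg.Agent.GT Cfsg.Agent.Inv Cfsg.Agent.Cmp
open scoped commutatorElement

universe u

theorem TyG_inn {X Y : Type*} [Group X] [Group Y] (e : X ≃* Y) {α : MulAut X} :
    MulAut.congr e α ∈ Inn Y ↔ α ∈ Inn X := by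
  refine ⟨fun ⟨y, hy⟩ => ⟨e.symm y, MulEquiv.ext fun x => ?_⟩, fun ⟨x, hx⟩ => ⟨e x, MulEquiv.ext fun y => ?_⟩⟩
  · have := congrArg (fun β : MulAut Y => e.symm (β (e x))) hy
    simpa using this
  · rw [← hx]; simp

theorem Ty.of_equiv {X Y : Type*} [Group X] [Group Y] [Finite Y] {q : ℕ} (h : Ty q Y) (e : X ≃* Y) :
    Ty q X := by
  have := h.simple
  have hc : ∀ (α : MulAut X) (x : X), MulAut.congr e α (e x) = e (α x) := fun α x => by simp
  have h1 : ∀ α : MulAut X, α * α = 1 → MulAut.congr e α * MulAut.congr e α = 1 := fun α hα => by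
    rw [← map_mul, hα, map_one]
  refine ⟨e.isSimpleGroup, fun hX => h.nab ⟨⟨fun a b => ?_⟩⟩, h.q4, fun α β => ?_, fun a b ha hb => ?_,
    fun a x ha hx ho => ?_, fun U α hα hU => ?_, fun α β hα hβ hαβ => ?_, fun Z hZ => ?_, ?_, fun α hα hn => ?_⟩
  · apply e.symm.injective
    rw [map_mul, map_mul]; exact hX.1.1 _ _
  · rw [← TyG_inn e, map_commutatorElement]; exact h.outc _ _
  · simpa using e.symm.toMonoidHom.map_isConj (h.one (e a) (e b) (by simpa using ha) (by simpa using hb))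
  · exact e.map_eq_one_iff.1 (h.ci (e a) (e x) (by simpa using ha) (hx.map e) (by simpa using ho))
  · refine (TyG_inn e).1 (h.sy (U.comapOfInjective e.symm.toMonoidHom e.symm.injective fun x _ =>
      ⟨e x, e.symm_apply_apply x⟩) _ (h1 α hα) fun u hu => ?_)
    obtain ⟨x, rfl⟩ := e.surjective u
    rw [hc, hU x (by simpa using (show e.symm (e x) ∈ U from hu))]
  · simpa only [← map_mul, TyG_inn] using h.o1 _ _ (h1 α hα) (h1 β hβ) (hαβ.map _)
  · rw [← card_map_of_injective (f := (MulAut.congr e).toMonoidHom) (MulAut.congr e).injective]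
    exact h.bd _ (hZ.map _)
  · obtain ⟨E, H, a1, a2, a3, a4, a5, a6⟩ := h.ex
    have c : ∀ K : Subgroup Y, Nat.card (K.map e.symm.toMonoidHom) = Nat.card K := fun K =>
      card_map_of_injective e.symm.injective
    refine ⟨E.map e.symm.toMonoidHom, H.map e.symm.toMonoidHom, a1.map _, (c E).trans a2, (c H).symm ▸ a3,
      map_le_normalizer_map a4 _, ?_, a6.imp (fun k => (c H).symm ▸ k) fun k α hα => (TyG_inn e).1 (k _ (h1 α hα))⟩
    rintro _ ⟨a, ha, rfl⟩ _ ⟨b, hb, rfl⟩ n1 n2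
    obtain ⟨k, hk, e1⟩ := a5 a ha b hb (fun e => n1 (by rw [e, map_one])) fun e => n2 (by rw [e, map_one])
    exact ⟨_, ⟨k, hk, rfl⟩, by rw [← e1, map_mul, map_mul, map_inv]⟩
  · obtain ⟨ρ, d, b1, b2, b3, b4⟩ := h.o3 _ (h1 α hα) fun k => hn ((TyG_inn e).1 k)
    obtain ⟨ρ, rfl⟩ := e.surjective ρ
    obtain ⟨d, rfl⟩ := e.surjective d
    rw [hc] at b3 b4
    exact ⟨ρ, d, by simpa using b1, e.injective (by simpa using b2), e.injective b3, e.injective b4⟩

section

variable {G : Type*} [Group G] {A : Subgroup G}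

theorem TyG_act (n : NN A) (a : A) : (A.normalizerMonoidHom n a : G) = n * a * (n : G)⁻¹ := rfl

theorem TyG_act_one {n : NN A} : A.normalizerMonoidHom n = 1 ↔ (n : G) ∈ CC A := by
  rw [← MonoidHom.mem_ker, normalizerMonoidHom_ker, mem_subgroupOf]

theorem TyG_act_inn {n : NN A} : A.normalizerMonoidHom n ∈ Inn A ↔ In A n := by
  have e : ∀ a : A, A.normalizerMonoidHom ⟨a, le_normalizer a.2⟩ = MulAut.conj a := fun a =>
    MulEquiv.ext fun _ => rfl
  refine ⟨fun ⟨a, ha⟩ => ⟨a, a.2, (TyG_act_one (n := n * (⟨a, le_normalizer a.2⟩ : NN A)⁻¹)).1 ?_⟩,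
    fun ⟨a, ha, k⟩ => ⟨⟨a, ha⟩, ?_⟩⟩
  · rw [map_mul, map_inv, e, ha, mul_inv_cancel]
  · have := (TyG_act_one (n := n * (⟨a, le_normalizer ha⟩ : NN A)⁻¹)).2 k
    rw [map_mul, map_inv, mul_inv_eq_one] at this
    rw [this]; exact (e ⟨a, ha⟩).symm

theorem TyG_act_sq {x : G} (hx : x ∈ NN A) (h : x * x ∈ CC A) :
    A.normalizerMonoidHom ⟨x, hx⟩ * A.normalizerMonoidHom ⟨x, hx⟩ = 1 := by
  rw [← map_mul]; exact TyG_act_one.2 h

/-- The order of a subgroup of the normalizer. -/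
theorem TyG_card {Y : Subgroup G} (hY : Y ≤ NN A) :
    Nat.card Y = Nat.card ((Y.subgroupOf (NN A)).map A.normalizerMonoidHom) * Nat.card (Y ⊓ CC A : Subgroup G) := by
  rw [← relIndex_ker, normalizerMonoidHom_ker, relIndex_subgroupOf hY, mul_comm, ← card_mul_index ((CC A).subgroupOf Y),
    ← inf_subgroupOf_left, Nat.card_congr (subgroupOfEquivOfLe (inf_le_left : Y ⊓ CC A ≤ Y)).toEquiv,
    inf_subgroupOf_left]
  rfl

end

theorem Ty.tyG {G : Type*} [Group G] [Finite G] {q : ℕ} {A : Subgroup G} (h : Ty q A) : TyG q A := by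
  have := h.simple
  have hs : ∀ N : Subgroup G, N ≤ A → A ≤ NN N → N = ⊥ ∨ N = A := fun N h1 h2 => by
    rcases (normal_subgroupOf_of_le_normalizer h2).eq_bot_or_eq_top with e | e
    · exact .inl (by rw [← map_subgroupOf_eq_of_le h1, e, Subgroup.map_bot])
    · exact .inr (le_antisymm h1 (subgroupOf_eq_top.1 e))
  have hq := IsQuasisimple.of_isSimpleGroup h.nab
  have hone : ∀ a ∈ A, ∀ b ∈ A, orderOf a = 2 → orderOf b = 2 → ∃ g ∈ A, g * a * g⁻¹ = b := fun a ha b hb h1 h2 => by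
    obtain ⟨g, hg⟩ := isConj_iff.1 (h.one ⟨a, ha⟩ ⟨b, hb⟩ (by rwa [← orderOf_coe]) (by rwa [← orderOf_coe]))
    exact ⟨g, g.2, congrArg Subtype.val hg⟩
  obtain ⟨E, H, a1, a2, a3, a4, a5, a6⟩ := h.ex
  obtain ⟨e0, he0, e1⟩ : ∃ e0 ∈ E, orderOf e0 = 2 := by
    obtain ⟨⟨x, hx⟩, h1⟩ := ne_bot_iff_exists_ne_one.1 (show E ≠ ⊥ from fun e => by
      have := h.q4
      rw [e, card_bot] at a2
      omega)
    exact ⟨x, hx, orderOf_eq_prime (a1.2 x hx) fun e => h1 (Subtype.ext e)⟩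
  refine ⟨hq, ?_, hs, h.q4, fun x hx y hy => ?_, hone, fun a ha x hx h1 h2 h3 => ?_, fun U hU x hx h1 h2 => ?_,
    fun x hx y hy h1 h2 h3 => ?_, fun Y hY h1 => ?_, fun e he h1 => ?_, fun x hx h1 h2 => ?_,
    ⟨e0, e0.2, by rwa [orderOf_coe]⟩⟩
  · refine (hs _ inf_le_left (le_normalizer_of_le_centralizer fun a ha k hk => ?_)).resolve_right fun e =>
      hq.not_le_centralizer (e.ge.trans inf_le_right)
    exact (comm_of_CC hk.2 ha).symm
  · have := h.outc (A.normalizerMonoidHom ⟨x, hx⟩) (A.normalizerMonoidHom ⟨y, hy⟩)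
    rw [← map_commutatorElement] at this
    exact TyG_act_inn.1 this
  · exact congrArg Subtype.val (h.ci ⟨a, ha⟩ ⟨x, hx⟩ (by rwa [← orderOf_coe]) (Subtype.ext h2)
      (by rwa [← orderOf_coe]))
  · exact TyG_act_inn.1 (h.sy (IsPGroup.toSylow (hU.two.comap_subtype (K := A)) hU.idx) _ (TyG_act_sq hx h1)
      fun u hu => Subtype.ext (conj_eq_of_comm (comm_of_CC h2 hu).symm))
  · have := h.o1 _ _ (TyG_act_sq hx h1) (TyG_act_sq hy h2)
      (Commute.map (show Commute (⟨x, hx⟩ : NN A) ⟨y, hy⟩ from Subtype.ext h3) _)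
    rw [← map_mul] at this
    simp only [TyG_act_inn] at this
    exact this
  · rw [TyG_card hY]
    exact Nat.mul_le_mul_right _ (h.bd _ ((h1.comap (subtype_injective _)).map _))
  · obtain ⟨g, hg, e2⟩ := hone e0 e0.2 e he (by rwa [orderOf_coe]) h1
    have c : ∀ K : Subgroup A, Nat.card ((K.map A.subtype) ^ᶜ g) = Nat.card K := fun K => by
      rw [card_map_conj, card_map_of_injective (subtype_injective _)]
    refine ⟨(E.map A.subtype) ^ᶜ g, (H.map A.subtype) ^ᶜ g, e2 ▸ conj_mem_map_conj.2 ⟨e0, he0, rfl⟩,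
      map_conj_le_of_mem (map_subtype_le _) hg, map_conj_le_of_mem (map_subtype_le _) hg, (a1.map _).map _,
      (c E).trans a2, (c H).symm ▸ a3, map_le_normalizer_map (map_le_normalizer_map a4 _) _, ?_,
      a6.imp (fun k => (c H).symm ▸ k) fun k x hx h2 => TyG_act_inn.1 (k _ (TyG_act_sq hx h2))⟩
    rintro _ ⟨_, ⟨a, ha, rfl⟩, rfl⟩ _ ⟨_, ⟨b, hb, rfl⟩, rfl⟩ n1 n2
    obtain ⟨k, hk, e1⟩ := a5 a ha b hb (fun e => n1 (by rw [e, map_one, map_one]))
      fun e => n2 (by rw [e, map_one, map_one])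
    exact ⟨_, ⟨_, ⟨k, hk, rfl⟩, rfl⟩, by simp only [← e1, map_mul, map_inv]⟩
  · obtain ⟨ρ, d, b1, b2, b3, b4⟩ := h.o3 _ (TyG_act_sq hx h1) fun k => h2 (TyG_act_inn.1 k)
    exact ⟨ρ, ρ.2, d, d.2, by rwa [orderOf_coe], congrArg Subtype.val b2,
      comm_of_conj_eq (congrArg Subtype.val b3), comm_of_conj_eq (congrArg Subtype.val b4)⟩

section

variable {G : Type*} [Group G] {A : Subgroup G} (g : G)

theorem TyG_m {x : G} : MulAut.conj g x ∈ A ^ᶜ g ↔ x ∈ A := conj_mem_map_conj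

theorem TyG_mN {x : G} : MulAut.conj g x ∈ NN (A ^ᶜ g) ↔ x ∈ NN A := by
  rw [NN, normalizer_map_conj]; exact conj_mem_map_conj

theorem TyG_mC {x : G} : MulAut.conj g x ∈ CC (A ^ᶜ g) ↔ x ∈ CC A := by
  rw [CC, centralizer_map_conj]; exact conj_mem_map_conj

theorem TyG_mI {x : G} : In (A ^ᶜ g) (MulAut.conj g x) ↔ In A x := by
  refine ⟨fun h => ?_, fun h => h.conj g⟩
  have := h.conj g⁻¹
  rwa [map_conj_inv_map_conj, MulAut.conj_apply, show g⁻¹ * (g * x * g⁻¹) * g⁻¹⁻¹ = x by group] at this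

theorem TyG_mT {x : G} : Two (MulAut.conj g x) ↔ Two x := by
  simp only [Two, ← map_pow, MulEquiv.map_eq_one_iff]

theorem TyG_mK {x y : G} : Commute (MulAut.conj g x) (MulAut.conj g y) ↔ Commute x y :=
  ⟨fun h => h.of_map (MulAut.conj g).injective, fun h => h.map _⟩

theorem TyG_mS {U : Subgroup G} : Syl (U ^ᶜ g) (A ^ᶜ g) ↔ Syl U A := by
  refine ⟨fun h => ?_, fun h => h.conj g⟩
  have := h.conj g⁻¹
  rwa [map_conj_inv_map_conj, map_conj_inv_map_conj] at this

theorem TyG_mE {Y : Subgroup G} : IsElementaryAbelian 2 (Y ^ᶜ g) ↔ IsElementaryAbelian 2 Y :=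
  ⟨fun h => h.of_map (MulAut.conj g).injective, fun h => h.map _⟩

theorem TyG_all {P : G → Prop} : (∀ x, P x) ↔ ∀ x, P (MulAut.conj g x) := (MulAut.conj g).surjective.forall

theorem TyG_ex {P : G → Prop} : (∃ x, P x) ↔ ∃ x, P (MulAut.conj g x) := (MulAut.conj g).surjective.exists

theorem TyG_surj : Function.Surjective fun N : Subgroup G => N ^ᶜ g := fun N => ⟨_, map_conj_map_conj_inv N g⟩

theorem TyG_cc : CC (A ^ᶜ g) = CC A ^ᶜ g := centralizer_map_conj A g

theorem TyG_nn : NN (A ^ᶜ g) = NN A ^ᶜ g := normalizer_map_conj A g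

theorem TyG_cj (a b : G) : MulAut.conj g a * MulAut.conj g b * (MulAut.conj g a)⁻¹ = MulAut.conj g (a * b * a⁻¹) := by
  rw [map_mul, map_mul, map_inv]

end

theorem TyG.conj {G : Type*} [Group G] [Finite G] {q : ℕ} {A : Subgroup G} (h : TyG q A) (g : G) :
    TyG q (A ^ᶜ g) := by
  have s := (MulAut.conj g).surjective
  refine ⟨h.qs.map_of_injective (MulAut.conj g).injective, ?_, ?_, h.q4, ?_, ?_, ?_, ?_, ?_, ?_, ?_, ?_, ?_⟩
  · rw [TyG_cc, ← map_conj_inf, h.zen, Subgroup.map_bot]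
  · simp +singlePass only [(TyG_surj g).forall]
    simpa only [TyG_nn, map_conj_le_map_conj_iff, map_conj_eq_bot_iff, map_conj_inj] using h.sim
  · simp +singlePass only [s.forall]
    simpa only [TyG_mN, ← map_commutatorElement, TyG_mI] using h.outc
  · simp +singlePass only [s.forall, s.exists]
    simpa only [TyG_m, MulEquiv.orderOf_eq, TyG_cj, EmbeddingLike.apply_eq_iff_eq] using h.one
  · simp +singlePass only [s.forall]
    simpa only [TyG_m, MulEquiv.orderOf_eq, TyG_mK, MulEquiv.map_eq_one_iff] using h.ci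
  · simp +singlePass only [(TyG_surj g).forall, s.forall]
    simpa only [TyG_mS, TyG_mN, ← map_mul, TyG_mC, TyG_mI] using h.sy
  · simp +singlePass only [s.forall]
    simpa only [TyG_mN, ← map_mul, TyG_mC, TyG_mI, TyG_mK] using h.o1
  · simp +singlePass only [(TyG_surj g).forall]
    simpa only [TyG_nn, TyG_cc, map_conj_le_map_conj_iff, TyG_mE, ← map_conj_inf, card_map_conj] using h.bd
  · simp +singlePass only [(TyG_surj g).exists, s.forall, s.exists]
    simpa only [TyG_m, MulEquiv.orderOf_eq, map_conj_le_map_conj_iff, TyG_mE, card_map_conj, TyG_nn, ne_eq,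
      MulEquiv.map_eq_one_iff, ← map_inv, EmbeddingLike.apply_eq_iff_eq, ← map_mul, TyG_mC, TyG_mI] using h.ex
  · simp +singlePass only [s.forall, s.exists]
    simpa only [TyG_m, TyG_mN, MulEquiv.orderOf_eq, ← map_inv, EmbeddingLike.apply_eq_iff_eq,
      ← map_mul, TyG_mC, TyG_mI, TyG_mK] using h.o3
  · simp +singlePass only [s.exists]
    simpa only [TyG_m, MulEquiv.orderOf_eq] using h.inv

theorem TcG.conj {G : Type*} [Group G] [Finite G] {q : ℕ} {A : Subgroup G} (h : TcG q A) (g : G) :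
    TcG q (A ^ᶜ g) := by
  have s := (MulAut.conj g).surjective
  refine ⟨h.qs.map_of_injective (MulAut.conj g).injective, ?_, ?_, h.q8, ?_, ?_, ?_, ?_, ?_, ?_⟩
  · rw [TyG_cc, ← map_conj_inf]; exact h.two.map _
  · rw [TyG_cc, ← map_conj_inf, ne_eq, map_conj_eq_bot_iff]; exact h.ne
  · simp +singlePass only [s.forall]
    simpa only [TyG_mN, ← map_commutatorElement, TyG_mI] using h.outc
  · simp +singlePass only [s.forall]
    simpa only [TyG_mN, TyG_mT, TyG_mI] using h.inn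
  · simp +singlePass only [s.forall]
    simpa only [TyG_m, TyG_mC, ← map_mul, ← map_commutatorElement, MulEquiv.orderOf_eq,
      MulEquiv.map_eq_one_iff] using h.ci
  · simp +singlePass only [(TyG_surj g).forall, s.forall]
    simpa only [TyG_mS, TyG_m, TyG_mC] using h.zu
  · simp +singlePass only [(TyG_surj g).forall]
    simpa only [TyG_nn, TyG_cc, map_conj_le_map_conj_iff, TyG_mE, ← map_conj_inf, card_map_conj] using h.bd
  · simp +singlePass only [(TyG_surj g).exists, s.forall, s.exists]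
    simpa only [TyG_m, map_conj_le_map_conj_iff, TyG_mE, TyG_cc, card_map_conj, ← map_conj_inf, ← map_inv,
      EmbeddingLike.apply_eq_iff_eq, ← map_mul] using h.ex

end Cfsg.Agent.QE
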