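import Mathlib
import Cfsg.Agent.QE.Defs
import Cfsg.Agent.QE.TyG
import Cfsg.Agent.S2126
import Cfsg.Agent.Cl.AutField

/-! # S1848, piece QE-TyB: Suzuki groups (proof in stubs/Cfsg/Agent/QE/PLAN.md) -/

set_option autoImplicit false
set_option linter.unusedVariables false

namespace Cfsg.Agent.QE

open Cfsg Subgroup Cfsg.Agent.GT Cfsg.Agent.Inv Cfsg.Agent.Cmp
open scoped commutatorElement

universe u

theorem TyB_inn {X : Type*} [Group X] (h : Odd (Nat.card (Out X))) {α : MulAut X} {k : ℕ} (h2 : α ^ 2 ^ k = 1) :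
    α ∈ Inn X :=
  (QuotientGroup.eq_one_iff α).1 (orderOf_eq_one_iff.1 (Nat.eq_one_of_dvd_coprimes
    (Nat.Coprime.pow_left k (Nat.coprime_two_left.2 h))
    (orderOf_dvd_of_pow_eq_one (by rw [← QuotientGroup.mk_pow, h2, QuotientGroup.mk_one])) (orderOf_dvd_natCard _)))

section

open Cfsg.Agent.Chev.Sz

variable {F : Type*} [Field F] {m : ℕ} [SzF F m]

theorem TyB_tr {b c : F} (hb : b ≠ 0) (hc : c ≠ 0) :
    ∃ k : Fˣ, (he k * ue 0 b * (he k)⁻¹ : Cfsg.Sz F m) = ue 0 c := by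
  obtain ⟨k, hk⟩ := mul_th_surjective (m := m) (c / b)
  have k0 : k ≠ 0 := by
    rintro rfl
    rw [zero_mul, eq_comm, div_eq_zero_iff] at hk
    tauto
  exact ⟨Units.mk0 k k0, by rw [he_conj_ue, Units.val_mk0, hk, mul_zero, div_mul_cancel₀ _ hb]⟩

theorem TyB_cen {g : Cfsg.Sz F m} (h : g * g = 1) : ∃ x : Cfsg.Sz F m, x⁻¹ * g * x ∈ cenZ F m := by
  obtain ⟨P, hP⟩ := exists_mem_sylAt_of_mul_self h
  obtain ⟨x, rfl⟩ := exists_smul_inf_eq P
  exact ⟨x, mem_cenZ_iff.2 ⟨sylU_le_borel (mem_sylAt_smul_inf.1 hP), by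
    rw [show x⁻¹ * g * x * (x⁻¹ * g * x) = x⁻¹ * (g * g) * x by group, h]; group⟩⟩

theorem TyB_sz : Ty (Nat.card F) (Cfsg.Sz F m) := by
  have ho : Odd (Nat.card (Out (Cfsg.Sz F m))) := by
    rw [S2126.aux (MulEquiv.refl _)]; exact odd_two_mul_add_one m
  have hi : ∀ α : MulAut (Cfsg.Sz F m), α * α = 1 → α ∈ Inn _ := fun α h =>
    TyB_inn ho (k := 1) (by rw [pow_one, pow_two, h])
  refine ⟨inferInstance, fun h => we_ne_one (F := F) (m := m) ?_, le_trans (by norm_num) (eight_le_card F),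
    fun α β => ?_, fun a b ha hb => ?_, fun a x ha hx h => ?_, fun _ α h _ => hi α h, fun α _ h _ _ => .inl (hi α h),
    fun Y hY => ?_, ⟨cenZ F m, torH F m, ⟨⟨⟨?_⟩⟩, fun a ha => ?_⟩, card_cenZ, ?_, fun g hg => ?_, ?_, .inr hi⟩,
    fun α h hn => absurd (hi α h) hn⟩
  · rw [← mem_bot, ← center_Sz]
    exact mem_center_iff.2 fun g => h.1.1 _ _
  · rw [← QuotientGroup.eq_one_iff, ← QuotientGroup.mk'_apply, map_commutatorElement,
      commutatorElement_eq_one_iff_mul_comm]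
    obtain ⟨x, σ, rfl⟩ := exists_conj_mul_fieldAut α
    obtain ⟨y, τ, rfl⟩ := exists_conj_mul_fieldAut β
    have e : ∀ x : Cfsg.Sz F m, QuotientGroup.mk' (Inn _) (MulAut.conj x) = 1 := fun x =>
      (QuotientGroup.eq_one_iff _).2 ⟨x, rfl⟩
    rw [map_mul, map_mul, e, e, one_mul, one_mul, ← map_mul, ← map_mul]
    refine congrArg _ (MulEquiv.ext fun g => mat_injective ?_)
    change ((mat g).map τ).map σ = ((mat g).map σ).map τ
    ext
    exact Cl.Aut.ringAut_apply_comm σ τ _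
  · obtain ⟨x, b1, e1⟩ := TyB_cen (mul_self_of_two ha)
    obtain ⟨y, b2, e2⟩ := TyB_cen (mul_self_of_two hb)
    have n : ∀ {g x : Cfsg.Sz F m} {b : F}, orderOf g = 2 → x⁻¹ * g * x = ue 0 b → b ≠ 0 := fun h e h0 => by
      rw [h0, ue_zero, inv_conj_eq_one] at e
      simp [e] at h
    obtain ⟨k, hk⟩ := TyB_tr (m := m) (n ha e1) (n hb e2)
    refine isConj_iff.2 ⟨y * he k * x⁻¹, ?_⟩
    rw [← e1, ← e2] at hk
    calc _ = y * (he k * (x⁻¹ * a * x) * (he k)⁻¹) * y⁻¹ := by group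
      _ = _ := by rw [hk]; group
  · obtain ⟨P, hP⟩ := exists_mem_sylAt_of_mul_self (mul_self_of_two ha)
    have h1 := (mem_sylAt_of_commute hP (fun e => by simp [e] at ha) hx.symm).2
    exact orderOf_eq_one_iff.1 (Nat.eq_one_of_dvd_coprimes
      (Nat.Coprime.pow_left 2 (Nat.coprime_two_left.2 h)) (orderOf_dvd_of_pow_eq_one h1) dvd_rfl)
  · have h0 : Function.Injective (MulAut.conj (G := Cfsg.Sz F m)) := fun a b e =>
      (conj_mul_fieldAut_inj (φ := 1) (φ' := 1) (by rw [e])).1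
    have h1 := hY.comap h0
    rw [← map_comap_eq_self (f := MulAut.conj) (H := Y) fun α hα => hi α (by rw [← pow_two, hY.2 α hα]),
      card_map_of_injective h0, ← card_cenZ (F := F) (m := m)]
    obtain ⟨P, hP⟩ := exists_le_sylAt h1.isPGroup
    obtain ⟨x, rfl⟩ := exists_smul_inf_eq P
    rw [← card_map_conj _ x⁻¹]
    refine card_le_of_le (map_conj_le_iff_forall.2 fun g hg => mem_cenZ_iff.2 ⟨sylU_le_borel ?_, ?_⟩)
    · rw [inv_inv]; exact mem_sylAt_smul_inf.1 (hP hg)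
    · rw [conj_mul, ← pow_two, h1.2 g hg]; group
  · rintro ⟨_, b, rfl⟩ ⟨_, c, rfl⟩
    exact Subtype.ext (ue_zero_comm _ _ _)
  · rw [pow_two]; exact (mem_cenZ_iff.1 ha).2
  · rw [card_torH]; exact odd_card_sub_one F
  · exact mem_normalizer_iff_of_finite.2 fun u hu => conj_mem_cenZ (torH_le_borel hg) hu
  · rintro _ ⟨b, rfl⟩ _ ⟨c, rfl⟩ h1 h2
    obtain ⟨k, hk⟩ := TyB_tr (m := m) (b := b) (c := c) (fun e => h1 (by rw [e, ue_zero]))
      fun e => h2 (by rw [e, ue_zero])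
    exact ⟨_, he_mem_torH k, hk⟩

end

theorem ty_sz {X : Type*} [Group X] (h : Lie.IsoSuzuki X) :
    ∃ q, 8 ≤ q ∧ Ty q X ∧ Odd (Nat.card (Out X)) := by
  obtain ⟨F, _, m, _, ⟨e⟩⟩ := Chev.Sz.exists_of_isoSuzuki h
  exact ⟨_, Chev.Sz.eight_le_card F, TyB_sz.of_equiv e, by rw [S2126.aux e.symm]; exact odd_two_mul_add_one m⟩

end Cfsg.Agent.QE
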