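import Mathlib
import Cfsg.Agent.QE.Defs
import Cfsg.Agent.QE.TyB
import Cfsg.Agent.Chev.SzMult

/-! # S1848, piece QE-Cov: proper covers of Suzuki groups (proof in stubs/Cfsg/Agent/QE/PLAN.md) -/

set_option autoImplicit false
set_option linter.unusedVariables false

namespace Cfsg.Agent.QE

open Cfsg Subgroup Cfsg.Agent.GT Cfsg.Agent.Inv Cfsg.Agent.Cmp
open scoped commutatorElement

universe u

/-- The action of the normalizer on the central quotient. -/
theorem Cov_bar {G Q : Type*} [Group G] [Group Q] {A : Subgroup G} (hq : IsQuasisimple A) {σ : A →* Q}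
    (hs : Function.Surjective σ) (hk : σ.ker = center A) :
    ∃ f : NN A →* MulAut Q, (∀ n, f n = 1 ↔ (n : G) ∈ CC A) ∧ ∀ n, f n ∈ Inn Q ↔ In A n := by
  have := hq.isPerfect
  have h0 : ∀ α : MulAut A, center A ≤ ((center A).comap α.toMonoidHom) := fun α x hx => mem_center_iff.2 fun y => by
    obtain ⟨y, rfl⟩ := α.surjective y
    change α y * α x = α x * α y
    rw [← map_mul, ← map_mul, mem_center_iff.1 hx]
  let g : MulAut A → Q →* Q := fun α => σ.liftOfSurjective hs ⟨σ.comp α.toMonoidHom, fun x hx => by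
    rw [hk] at hx
    change α x ∈ σ.ker
    rw [hk]; exact h0 α hx⟩
  have hg : ∀ α x, g α (σ x) = σ (α x) := fun α x => σ.liftOfRightInverse_comp_apply _ _ _ x
  let φ : MulAut A →* MulAut Q := MonoidHom.mk' (fun α => MonoidHom.toMulEquiv (g α) (g α⁻¹)
    (MonoidHom.ext fun y => by obtain ⟨x, rfl⟩ := hs y; simp [hg])
    (MonoidHom.ext fun y => by obtain ⟨x, rfl⟩ := hs y; simp [hg])) fun α β => MulEquiv.ext fun y => by
      obtain ⟨x, rfl⟩ := hs y; simp [hg]
  have hφ : ∀ α x, φ α (σ x) = σ (α x) := hg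
  have h1 : ∀ α, φ α = 1 → α = 1 := fun α h => MulEquiv.ext fun x =>
    perfect_hom_eq_self α.toMonoidHom (fun x => by
      rw [← hk, MonoidHom.mem_ker, map_mul, map_inv, mul_inv_eq_one]
      exact (hφ α x).symm.trans (by rw [h]; rfl)) x
  have h2 : ∀ a : A, φ (MulAut.conj a) = MulAut.conj (σ a) := fun a => MulEquiv.ext fun y => by
    obtain ⟨x, rfl⟩ := hs y; simp [hφ]
  refine ⟨φ.comp A.normalizerMonoidHom, fun n => ?_, fun n => ?_⟩
  · rw [← TyG_act_one]
    exact ⟨h1 _, fun h => by rw [MonoidHom.comp_apply, h, map_one]⟩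
  · rw [← TyG_act_inn]
    refine ⟨fun ⟨y, hy⟩ => ?_, fun ⟨a, ha⟩ => ⟨σ a, by rw [MonoidHom.comp_apply, ← ha, h2]⟩⟩
    obtain ⟨a, rfl⟩ := hs y
    exact ⟨a, mul_inv_eq_one.1 (h1 _ (by rw [map_mul, map_inv, h2, hy]; exact mul_inv_cancel _))⟩

open Cfsg.Agent.Chev Cfsg.Agent.Chev.Sz in
theorem tcG {G : Type*} [Group G] [Finite G] {A : Subgroup G} (hq : IsQuasisimple A)
    (h2 : IsPGroup 2 (center A)) (hne : center A ≠ ⊥) (hs : Lie.IsoSuzuki (A ⧸ center A)) :
    ∃ q, TcG q A := by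
  obtain ⟨F, _, m, _, ⟨e⟩⟩ := exists_of_isoSuzuki hs
  set σ : A →* Cfsg.Sz F m := e.toMonoidHom.comp (QuotientGroup.mk' _) with hσ0
  have hk : σ.ker = center A := by
    rw [hσ0, Ch.ker_mulEquiv_comp, QuotientGroup.ker_mk']
  have hσ : IsStemExtension σ := ⟨e.surjective.comp (QuotientGroup.mk'_surjective _), hk.le,
    by rw [hq.commutator_eq_top]; exact le_top⟩
  clear_value σ
  obtain ⟨j, hj⟩ := IsPGroup.iff_card.1 h2
  obtain ⟨E, rfl, hE⟩ := exists_cExt hσ (hk ▸ hj)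
  obtain ⟨f, f1, f2⟩ := Cov_bar hq hσ.1 hk
  have mk : ∀ {x : A}, E.σ x = 1 ↔ (x : G) ∈ CC A := fun {x} => by
    rw [← MonoidHom.mem_ker, hk, center_eq_subgroupOf, mem_subgroupOf]
  have T := TyB_sz (F := F) (m := m)
  have b0 : ∀ a, E.β a 0 = 1 := fun a => by
    have := E.β_add_right a 0 0
    rwa [add_zero, left_eq_mul] at this
  have hW : ∀ b : F, b ≠ 0 → ∀ z : A, E.σ z = 1 → ∃ a, E.β a b = z := fun b hb z hz => by
    obtain ⟨a, ha⟩ := hE (MonoidHom.mk' (fun a : Multiplicative F => E.β a.toAdd b) fun a a' =>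
      E.β_add_left _ _ _).range (by rintro _ ⟨a, rfl⟩; exact E.σ_β _ _) (fun a c => by
        by_cases hc : c = 0
        · rw [hc, b0]; exact one_mem _
        obtain ⟨k, hk⟩ := mul_th_surjective (m := m) (b / c)
        have k0 : k ≠ 0 := by
          rintro rfl
          rw [zero_mul, eq_comm, div_eq_zero_iff] at hk
          tauto
        exact ⟨Multiplicative.ofAdd (k * a), by
          rw [← E.β_inv k a c k0, hk, div_mul_cancel₀ _ hc]; rfl⟩) hz
    exact ⟨_, ha⟩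
  have hsq : ∀ y : A, E.σ y ∈ cenZ F m → y * y = 1 := by
    rintro y ⟨b, hb⟩
    obtain ⟨r, r1, r2, -⟩ := E.exists_splitting
    have h0 : E.σ ((r b)⁻¹ * y) = 1 := by rw [map_mul, map_inv, r1, hb, inv_mul_cancel]
    obtain ⟨a, ha⟩ := hW 1 one_ne_zero _ h0
    have h1 : r 0 = 1 := by
      have := r2 0 0
      rwa [add_zero, left_eq_mul] at this
    have h3 : E.β 0 1 = 1 := by
      have := E.β_add_left 0 0 1
      rwa [add_zero, left_eq_mul] at this
    calc y * y = r b * (((r b)⁻¹ * y) * r b) * ((r b)⁻¹ * y) := by group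
      _ = r b * r b * (E.β a 1 * E.β a 1) := by rw [← E.comm h0, ha]; group
      _ = 1 := by rw [← r2, ← E.β_add_left, CharTwo.add_self_eq_zero, CharTwo.add_self_eq_zero, h1, h3, mul_one]
  have hcj : ∀ y y' : A, E.σ y ∈ cenZ F m → E.σ y' ∈ cenZ F m → E.σ y ≠ 1 → E.σ y' ≠ 1 →
      ∃ g : A, g * y * g⁻¹ = y' := by
    rintro y y' ⟨b, hb⟩ ⟨c, hc⟩ n1 n2
    have c0 : c ≠ 0 := fun e => n2 (by rw [hc, e, ue_zero])
    obtain ⟨k, hk⟩ := TyB_tr (m := m) (b := b) (fun e => n1 (by rw [hb, e, ue_zero])) c0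
    obtain ⟨a, ha⟩ := hW c c0 (E.s (he k) * y * (E.s (he k))⁻¹ * y'⁻¹) (by
      simp only [map_mul, map_inv, E.σ_s, hb, hc, hk, mul_inv_cancel])
    rw [← E.comm_eq_β (E.σ_s (ue a 0)) hc, commutatorElement_def, mul_left_inj] at ha
    refine ⟨(E.s (ue a 0))⁻¹ * E.s (he k), ?_⟩
    calc _ = (E.s (ue a 0))⁻¹ * (E.s (he k) * y * (E.s (he k))⁻¹) * E.s (ue a 0) := by group
      _ = _ := by rw [← ha]; group
  have hp : IsPGroup 2 E.σ.ker := hk ▸ h2
  refine ⟨Nat.card F, hq, map_center_subtype A ▸ h2.map _, fun h => hne ?_, eight_le_card F, fun x hx y hy => ?_,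
    fun x hx ⟨k, h⟩ => ?_, fun a ha n1 h1 x hx h3 h4 => ?_, fun U hU x hx h => ?_, fun Y hY h => ?_,
    fun l hl n1 h1 => ?_⟩
  · rwa [← map_center_subtype, map_eq_bot_iff_of_injective _ (subtype_injective _)] at h
  · have := T.outc (f ⟨x, hx⟩) (f ⟨y, hy⟩)
    rw [← map_commutatorElement] at this
    exact (f2 _).1 this
  · refine (f2 ⟨x, hx⟩).1 (TyB_inn (k := k) ?_ (by rw [← map_pow, show (⟨x, hx⟩ : NN A) ^ 2 ^ k = 1 from
      Subtype.ext h, map_one]))
    rw [S2126.aux (MulEquiv.refl _)]; exact odd_two_mul_add_one m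
  · lift a to A using ha
    lift x to A using hx
    rw [orderOf_coe] at h4
    have h5 := T.ci (E.σ a) (E.σ x) (orderOf_eq_prime (by rw [pow_two, ← map_mul]; exact mk.2 h1) fun e => n1 (mk.1 e))
      (commutatorElement_eq_one_iff_commute.1 (by rw [← map_commutatorElement]; exact mk.2 h3))
      (h4.of_dvd_nat (orderOf_map_dvd _ _))
    obtain ⟨k, hk⟩ := hp ⟨x, h5⟩
    exact congrArg Subtype.val (orderOf_eq_one_iff.1 (Nat.eq_one_of_dvd_coprimes
      (Nat.Coprime.pow_left k (Nat.coprime_two_left.2 h4))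
      (orderOf_dvd_of_pow_eq_one (congrArg Subtype.val hk)) dvd_rfl))
  · obtain ⟨k, hkA, h1⟩ := hU.exists_conj (T := ((sylU F m).comap E.σ).map A.subtype)
      ((isPGroup_sylU.comap_of_ker_isPGroup _ hp).map _) (map_subtype_le _)
    lift k to A using hkA
    lift x to A using hx
    have h3 : ∀ y : A, E.σ y ∈ sylU F m → y * (k⁻¹ * x * k) = k⁻¹ * x * k * y := fun y hy => by
      have h4 : k * y * k⁻¹ * x = x * (k * y * k⁻¹) := Subtype.ext (comm_of_CC h (h1 y ⟨y, hy, rfl⟩))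
      calc _ = k⁻¹ * (k * y * k⁻¹ * x) * k := by group
        _ = _ := by rw [h4]; group
    have h4 : ∀ a b : F, E.σ (k⁻¹ * x * k) * ue a b = ue a b * E.σ (k⁻¹ * x * k) := fun a b => by
      rw [← E.σ_s (ue a b), ← map_mul, ← map_mul, h3 _ (by rw [E.σ_s]; exact ue_mem_sylU a b)]
    obtain ⟨b, hb⟩ := mem_cenZ_of_commute_all (mem_sylU_of_commute (ue_mem_sylU 0 1) (by simp) (h4 0 1))
      fun c => h4 c 0
    obtain rfl : b = 0 := by
      by_contra h5
      refine hne (eq_bot_iff.2 fun z hz => ?_)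
      obtain ⟨a, rfl⟩ := hW b h5 z (by rwa [← hk] at hz)
      rw [← E.comm_eq_β (E.σ_s (ue a 0)) hb, mem_bot, commutatorElement_eq_one_iff_mul_comm]
      exact h3 _ (by rw [E.σ_s]; exact ue_mem_sylU a 0)
    rw [ue_zero, map_mul, map_mul, map_inv, inv_conj_eq_one] at hb
    exact mk.1 hb
  · have h1 : f.ker = (CC A).subgroupOf (NN A) := Subgroup.ext f1
    have h3 : Nat.card Y = Nat.card ((Y.subgroupOf (NN A)).map f) * Nat.card (Y ⊓ CC A : Subgroup G) := by
      rw [TyG_card hY, ← relIndex_ker, ← relIndex_ker, normalizerMonoidHom_ker, h1]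
    rw [h3]
    exact Nat.mul_le_mul_right _ (T.bd _ ((h.comap (subtype_injective _)).map _))
  · lift l to A using hl
    obtain ⟨x, hx⟩ := TyB_cen (g := E.σ l) (by rw [← map_mul]; exact mk.2 h1)
    obtain ⟨g, rfl⟩ := hσ.1 x
    have h3 : E.σ (g⁻¹ * l * g) ∈ cenZ F m := by simpa using hx
    have h4 : E.σ.ker ≤ (cenZ F m).comap E.σ := ker_le_comap _ _
    refine ⟨(((cenZ F m).comap E.σ) ^ᶜ g).map A.subtype, ⟨l, mem_map_conj.2 h3, rfl⟩, map_subtype_le _,
      IsElementaryAbelian.map (IsElementaryAbelian.map ⟨⟨⟨fun y z => Subtype.ext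
        (commutatorElement_eq_one_iff_mul_comm.1 (E.comm_cenZ y.2 z.2))⟩⟩,
        fun y hy => (pow_two y).trans (hsq y hy)⟩ _) _, fun z hz => ⟨⟨z, hz.1⟩, mem_map_conj.2 (h4 ?_), rfl⟩, ?_, ?_⟩
    · rw [MonoidHom.mem_ker, map_mul, map_mul, (mk (x := ⟨z, hz.1⟩)).2 hz.2]; simp
    · rw [card_map_of_injective (subtype_injective _), card_map_conj, ← map_center_subtype,
        card_map_of_injective (subtype_injective _), ← hk, ← card_mul_index (E.σ.ker.subgroupOf _),
        Nat.card_congr (subgroupOfEquivOfLe h4).toEquiv, mul_comm, ← card_cenZ (F := F) (m := m)]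
      congr 1
      rw [← relIndex, relIndex_ker, map_comap_eq_self_of_surjective hσ.1]
    · rintro _ ⟨a, ha, rfl⟩ n2
      obtain ⟨k, hk⟩ := hcj _ _ h3 (mem_map_conj.1 ha)
        (fun e => n1 (mk.1 (by rwa [map_mul, map_mul, map_inv, inv_conj_eq_one] at e)))
        (fun e => n2 (mk.1 (by rwa [map_mul, map_mul, map_inv, inv_conj_eq_one] at e)))
      refine ⟨(g * k * g⁻¹ : A), (g * k * g⁻¹).2, congrArg Subtype.val (?_ : g * k * g⁻¹ * l * (g * k * g⁻¹)⁻¹ = a)⟩
      calc _ = g * (k * (g⁻¹ * l * g) * k⁻¹) * g⁻¹ := by group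
        _ = _ := by rw [hk]; group

end Cfsg.Agent.QE
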