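import Mathlib
import Cfsg.Agent.QE.Defs
import Cfsg.Agent.KFI.SpDA
import Cfsg.Agent.Loc.CharP
import Cfsg.Agent.Chev.ChevSimple
import Cfsg.Agent.GT.CharSimple
import Cfsg.Agent.GT.Components

/-! # S1848, piece QE-K0: easy cases of KA, KB (proof in stubs/Cfsg/Agent/QE/PLAN.md) -/

set_option autoImplicit false
set_option linter.unusedVariables false

namespace Cfsg.Agent.QE

open Cfsg Subgroup Cfsg.Agent.GT Cfsg.Agent.Inv Cfsg.Agent.Cmp
open scoped commutatorElement

universe u

variable {X Y : Type*} [Group X] [Group Y]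

theorem KA.of_equiv [Finite Y] (h : KA Y) (e : X ≃* Y) : KA X := by
  intro U σ h2 hi hU M hM hl hn
  have := Finite.of_equiv Y e.symm.toEquiv
  have := Fact.mk Nat.prime_two
  refine h (U.mapSurjective (f := e.toMonoidHom) e.surjective) (MulAut.congr e σ) (by rw [← map_mul, h2, map_one])
    (fun ⟨y, hy⟩ => hi ⟨e.symm y, MulEquiv.ext fun x => e.injective ?_⟩) ?_ (M.map e.toMonoidHom) ?_
    (hl.of_equiv (e.subgroupMap M).symm) ?_
  · simpa using DFunLike.congr_fun hy (e x)
  · rintro _ ⟨u, hu, rfl⟩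
    simpa using hU u hu
  · convert hM.map_of_injective (f := e.toMonoidHom) e.injective
    ext y
    obtain ⟨x, rfl⟩ := e.surjective y
    rw [show e x = e.toMonoidHom x from rfl, mem_map_iff_mem e.injective]
    change MulAut.congr e σ (e x) = e x ↔ σ x = x
    simp
  · change (NN _).relIndex ((U : Subgroup X).map e.toMonoidHom) ≤ 2
    rwa [NN, ← map_equiv_normalizer_eq M e, relIndex_map_map_of_injective _ _ e.injective]

theorem KB.of_equiv [Finite Y] (h : KB Y) (e : X ≃* Y) : KB X := by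
  intro U b h2 hn
  have := Finite.of_equiv Y e.symm.toEquiv
  have := Fact.mk Nat.prime_two
  refine KFI.SpD.charP_equiv e (h (U.mapSurjective (f := e.toMonoidHom) e.surjective) _ (by rwa [e.orderOf_eq]) ?_)
  have k : C1 (e b) = (C1 b).map e.toMonoidHom := by
    ext y
    obtain ⟨x, rfl⟩ := e.surjective y
    rw [show e x = e.toMonoidHom x from rfl, mem_map_iff_mem e.injective, mem_C1, mem_C1]
    exact ⟨fun k => k.of_map e.injective, fun k => k.map e⟩
  change (C1 _).relIndex ((U : Subgroup X).map e.toMonoidHom) ≤ 2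
  rwa [k, relIndex_map_map_of_injective _ _ e.injective]

theorem Ty.ka {q : ℕ} (h : Ty q X) : KA X := fun U σ h2 hi hU _ _ _ _ => hi (h.sy U σ h2 hU)

theorem Ty.kb [Finite X] {q : ℕ} (h : Ty q X) : KB X := fun U b h2 _ => by
  have := Fact.mk Nat.prime_two
  refine Loc.CP.isCharP_of_isPGroup fun ⟨x, hx⟩ => ?_
  obtain ⟨k, m, hm, e⟩ := Nat.exists_eq_two_pow_mul_odd (orderOf_pos x).ne'
  refine ⟨k, Subtype.ext (h.ci b _ h2 ((mem_C1.1 hx).symm.pow_right _) (hm.of_dvd_nat ?_))⟩
  exact orderOf_dvd_of_pow_eq_one (show (x ^ 2 ^ k) ^ m = 1 by rw [← pow_mul, ← e, pow_orderOf_eq_one])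

theorem ka_of_out [Finite X] (h : Nat.card (Out X) = 1) : KA X := fun U σ _ hi _ _ _ _ _ =>
  hi ((QuotientGroup.eq_one_iff σ).1 ((Nat.card_eq_one_iff_unique.1 h).1.elim _ _))

theorem kb_chev [Finite X] [IsSimpleGroup X] (hna : ¬ IsMulCommutative X) (h : IsChevSimple 2 X) :
    KB X := fun U b h2 _ => by
  have b1 : b ≠ 1 := fun k => by rw [k, orderOf_one] at h2; omega
  have := Chev.locChar_of_chevSimple h (center_eq_bot_of_isSimpleGroup hna) (zpowers b) (Two.of_two h2).isPGroup
    (zpowers_ne_bot.2 b1)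
  convert this using 1
  refine le_antisymm (le_trans (by rw [CC, centralizer_zpowers]) (CC_le_NN _)) fun g hg => mem_C1.2 (comm_of_conj_eq ?_)
  classical
  have k := conj_mem_of_mem_normalizer hg (mem_zpowers b)
  rw [mem_zpowers_iff_mem_range_orderOf, h2] at k
  obtain ⟨i, hi, e⟩ := Finset.mem_image.1 k
  rw [Finset.mem_range] at hi
  interval_cases i
  · exact (b1 (conj_eq_one_iff.1 (e.symm.trans (pow_zero b)))).elim
  · exact e.symm.trans (pow_one b)

end Cfsg.Agent.QE
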