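import Mathlib
import Cfsg.Agent.QE.Defs

/-! # S1848: two reductions for `KB` -/

set_option autoImplicit false

namespace Cfsg.Agent.QE

open Cfsg Subgroup Cfsg.Agent.GT Cfsg.Agent.Inv Cfsg.Agent.Cmp
open scoped commutatorElement

/-- An involution with at most two conjugates lies in the second centre. -/
theorem mem_z2_of_index {T : Type*} [Group T] [Finite T] {a : T} (ha : a * a = 1)
    (h : (C1 a).index ≤ 2) : a ∈ Subgroup.upperCentralSeries T 2 := by
  have key : ∀ t y : T, Commute y ⁅a, t⁆ := by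
    intro t y
    by_cases ht : t ∈ C1 a
    · rw [commutatorElement_eq_one_iff_commute.2 (mem_C1.1 ht).symm]
      exact Commute.one_right y
    have h2 : (C1 a).index = 2 := by
      have h0 : (C1 a).index ≠ 0 := index_ne_zero_of_finite
      have h1 : (C1 a).index ≠ 1 := fun e => ht (index_eq_one.1 e ▸ mem_top t)
      omega
    have hn := normal_of_index_eq_two h2
    have e : ⁅a, t⁆ = a * (t * a * t⁻¹) := by
      rw [commutatorElement_def, inv_eq_of_mul_eq_one_right ha]; group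
    have h3 : ∀ y ∈ C1 a, Commute y (t * a * t⁻¹) := fun y hy => by
      have := comm_conj t (mem_C1.1 (hn.conj_mem' y hy t))
      rwa [show t * (t⁻¹ * y * t) * t⁻¹ = y by group] at this
    rw [e]
    by_cases hy : y ∈ C1 a
    · exact (mem_C1.1 hy).mul_right (h3 y hy)
    · have h4 : t⁻¹ * y ∈ C1 a := (mul_mem_iff_of_index_two h2).2 (by simp [hy, ht])
      have h5 : y * t ∈ C1 a := (mul_mem_iff_of_index_two h2).2 (by simp [hy, ht])
      have h6 := conj_eq_of_comm (mem_C1.1 h4)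
      have h7 := conj_eq_of_comm (mem_C1.1 h5)
      have h8 : y * a * y⁻¹ = t * a * t⁻¹ := by
        calc y * a * y⁻¹ = t * (t⁻¹ * y * a * (t⁻¹ * y)⁻¹) * t⁻¹ := by group
          _ = t * a * t⁻¹ := by rw [h6]
      refine comm_of_conj_eq ?_
      calc y * (a * (t * a * t⁻¹)) * y⁻¹ = y * a * y⁻¹ * (y * t * a * (y * t)⁻¹) := by group
        _ = a * (t * a * t⁻¹) := by rw [h7, h8, (h3 a (mem_C1.2 (Commute.refl a))).eq]
  exact fun t y => commutatorElement_eq_one_iff_commute.2 (key t y).symm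

variable {X : Type*} [Group X] [Finite X]

theorem kb_sylow (U : Sylow 2 X) {b : X} (hb : orderOf b = 2) (h : (C1 b).relIndex U ≤ 2) :
    ∃ P : Sylow 2 X, b ∈ P ∧ (C1 b).relIndex P ≤ 2 := by
  haveI : Fact (Nat.Prime 2) := ⟨Nat.prime_two⟩
  have h1 : IsPGroup 2 ((C1 b ⊓ U) ⊔ zpowers b : Subgroup X) :=
    Loc.Am.isPGroup_sup_of_normalizes (U.isPGroup'.to_le inf_le_right) (Two.of_two hb).isPGroup
      fun x hx => CC_le_NN _ (mem_CC.2 fun k hk => by
        obtain ⟨n, rfl⟩ := mem_zpowers_iff.1 hk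
        exact ((mem_C1.1 hx.1).zpow_right n).symm)
  obtain ⟨P, hP⟩ := h1.exists_le_sylow
  refine ⟨P, hP (mem_sup_right (mem_zpowers b)), ?_⟩
  have e : ∀ Q : Subgroup X, Nat.card (C1 b ⊓ Q : Subgroup X) * (C1 b).relIndex Q = Nat.card Q :=
    fun Q => by
      rw [← inf_relIndex_right, relIndex, ← card_mul_index ((C1 b ⊓ Q).subgroupOf Q),
        Nat.card_congr (subgroupOfEquivOfLe inf_le_right).toEquiv]
  have h2 : Nat.card (C1 b ⊓ U : Subgroup X) ≤ Nat.card (C1 b ⊓ P : Subgroup X) :=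
    card_le_of_le (le_inf inf_le_left (le_sup_left.trans hP))
  have h3 : Nat.card (P : Subgroup X) = Nat.card (U : Subgroup X) := by
    rw [P.card_eq_multiplicity, U.card_eq_multiplicity]
  have h4 := e P
  have h5 := e U
  have h6 : 0 < Nat.card (C1 b ⊓ P : Subgroup X) := Nat.card_pos
  refine le_of_mul_le_mul_left ?_ h6
  rw [h4, h3, ← h5]
  exact Nat.mul_le_mul h2 h

/-- It is enough to treat the involutions in the second centre of a Sylow subgroup. -/
theorem kb_of_z2 (h : ∀ (P : Sylow 2 X) (b : (P : Subgroup X)), orderOf (b : X) = 2 →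
    b ∈ Subgroup.upperCentralSeries (P : Subgroup X) 2 → Loc.Am.IsCharP 2 (C1 (b : X))) : KB X := by
  intro U b hb hi
  obtain ⟨P, hP, hi'⟩ := kb_sylow U hb hi
  refine h P ⟨b, hP⟩ hb (mem_z2_of_index (Subtype.ext ?_) ?_)
  · change b * b = 1
    rw [← pow_two, ← hb, pow_orderOf_eq_one]
  · have : C1 (⟨b, hP⟩ : (P : Subgroup X)) = (C1 b).subgroupOf P := by
      ext x
      rw [mem_subgroupOf, mem_C1, mem_C1]
      exact ⟨fun h => congrArg Subtype.val h.eq, fun h => Subtype.ext h.eq⟩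
    rw [this]
    exact hi'

/-- It is enough to treat the involutions whose centralizer has a large 2-part. -/
theorem kb_of_card {n : ℕ} (hn : (Nat.card X).factorization 2 = n + 1)
    (h : ∀ b : X, orderOf b = 2 → 2 ^ n ∣ Nat.card (C1 b) → Loc.Am.IsCharP 2 (C1 b)) : KB X := by
  haveI : Fact (Nat.Prime 2) := ⟨Nat.prime_two⟩
  intro U b hb hi
  refine h b hb (Dvd.dvd.trans ?_ (card_dvd_of_le (inf_le_left (b := (U : Subgroup X)))))
  have e : Nat.card (C1 b ⊓ U : Subgroup X) * (C1 b).relIndex U = 2 ^ (n + 1) := by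
    rw [← hn, ← U.card_eq_multiplicity, ← inf_relIndex_right, relIndex,
      ← card_mul_index ((C1 b ⊓ U).subgroupOf U),
      Nat.card_congr (subgroupOfEquivOfLe inf_le_right).toEquiv]
  have h0 : (C1 b).relIndex U ≠ 0 := index_ne_zero_of_finite
  obtain h1 | h1 : (C1 b).relIndex U = 1 ∨ (C1 b).relIndex U = 2 := by omega
  · rw [h1, mul_one] at e
    rw [e]
    exact pow_dvd_pow 2 (Nat.le_succ n)
  · rw [h1, pow_succ] at e
    exact (Nat.eq_of_mul_eq_mul_right (by norm_num) e).symm ▸ dvd_rfl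

end Cfsg.Agent.QE
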