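import Mathlib
import Cfsg.Agent.QE.Defs
import Cfsg.Agent.Cl.PGammaL2
import Cfsg.Agent.Cl.PSL2Solv
import Cfsg.Agent.S2602

/-! # S1848, piece QE-TyA: L2(2^n) (proof in stubs/Cfsg/Agent/QE/PLAN.md) -/

set_option autoImplicit false
set_option linter.unusedVariables false
set_option linter.unusedSectionVars false

namespace Cfsg.Agent.QE

open Cfsg Subgroup Cfsg.Agent.GT Cfsg.Agent.Inv Cfsg.Agent.Cmp
open scoped commutatorElement

universe u

namespace TyA

open Cfsg.Agent.Cl Cfsg.Agent.Cl.L2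
open scoped MatrixGroups

/-- A finite cyclic group has at most one involution. -/
theorem cyc_two {C : Type*} [Group C] [Finite C] [IsCyclic C] {a b : C} (ha : a * a = 1)
    (hb : b * b = 1) : a = 1 ∨ b = 1 ∨ a * b = 1 := by
  classical
  have := Fintype.ofFinite C
  by_contra hcon
  push Not at hcon
  obtain ⟨h1, h2, h3⟩ := hcon
  have h := IsCyclic.card_pow_eq_one_le (α := C) (n := 2) two_pos
  have hsub : ({1, a, b} : Finset C) ⊆ Finset.univ.filter fun x : C => x ^ 2 = 1 := by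
    intro x hx
    simp only [Finset.mem_insert, Finset.mem_singleton] at hx
    simp only [Finset.mem_filter, Finset.mem_univ, true_and]
    rcases hx with rfl | rfl | rfl
    · simp
    · rwa [pow_two]
    · rwa [pow_two]
  have h4 : ({1, a, b} : Finset C).card = 3 := by
    rw [Finset.card_eq_three]
    exact ⟨_, _, _, h1.symm, h2.symm, fun e => h3 (by rw [← e, ha]), rfl⟩
  have := Finset.card_le_card hsub
  omega

variable {F : Type} [Field F] [Fintype F] [CharP F 2]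

theorem emb_surj (g : PGL(2, F)) : ∃ x : PSL(2, F), emb x = g := by
  refine exists_emb_of_mem ?_
  rw [← pm_rep g]
  exact (pm_mem_psl (rep_det g)).2 (FiniteField.isSquare_of_char_two (ringChar.eq F 2) _)

theorem inn_of_right {α : MulAut PSL(2, F)} {γ : PGa F} (h : ∀ g, emb (α g) = act γ (emb g))
    (h1 : γ.right = 1) : α ∈ Inn PSL(2, F) := by
  obtain ⟨c, hc⟩ := emb_surj γ.left
  refine ⟨c, MulEquiv.ext fun g => emb_injective ?_⟩
  rw [h, eq_inl h1, act_inl, ← hc, MulAut.conj_apply, map_mul, map_mul, map_inv]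

theorem exists_out (h4 : 4 ≤ Fintype.card F) : ∃ (f : ℕ)
    (φ : MulAut PSL(2, F) →* Multiplicative (ZMod f)), 1 ≤ f ∧ Fintype.card F = 2 ^ f ∧
      ∀ α, φ α = 1 ↔ α ∈ Inn PSL(2, F) := by
  obtain ⟨n, -, hn⟩ := FiniteField.card F 2
  obtain ⟨φ, -, -, hk⟩ := S2602.result (F := F) (p := 2) (f := n) n.2 hn (hn ▸ h4)
  have hg : Nat.gcd 2 (2 ^ (n : ℕ) - 1) = 1 := by
    refine (Nat.coprime_two_left).2 ?_
    exact Nat.Even.sub_odd Nat.one_le_two_pow (Nat.even_pow.2 ⟨even_two, n.2.ne'⟩) odd_one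
  rw [hg, card_eq_one] at hk
  refine ⟨n, φ.comp (QuotientGroup.mk' _), n.2, hn, fun α => ?_⟩
  rw [MonoidHom.comp_apply, ← MonoidHom.mem_ker, hk, mem_bot]
  exact QuotientGroup.eq_one_iff α

theorem mul_self_uniS {x : PSL(2, F)} {y : P1 F} (hx : x ∈ uniS y) : x * x = 1 := by
  by_cases h : x = 1
  · simp [h]
  · have := pow_orderOf_eq_one x
    rwa [orderOf_of_mem_uniS 2 hx h, pow_two] at this

theorem ci (a x : PSL(2, F)) (ha : orderOf a = 2) (hc : Commute a x) (hx : Odd (orderOf x)) :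
    x = 1 := by
  have h2 : (2 : F) = 0 := CharTwo.two_eq_zero
  obtain ⟨y, hy⟩ := exists_mem_uniS (tauS_eq_four_of_orderOf_two h2 ha)
  have a1 : a ≠ 1 := by
    rintro rfl
    simp at ha
  have hxy : x ∈ uniS y := by
    rw [← torS_eq_uniS hy a1, ← centralizer_eq_torS_of_char_two h2]
    exact mem_centralizer_singleton_iff.2 hc.symm
  by_contra x1
  rw [orderOf_of_mem_uniS 2 hxy x1] at hx
  exact absurd hx (by decide)

theorem sy_inf {α : MulAut PSL(2, F)} (h : ∀ u ∈ uniS (inf : P1 F), α u = u) :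
    α ∈ Inn PSL(2, F) := by
  obtain ⟨γ, hγ⟩ := exists_pga α
  refine inn_of_right hγ ?_
  have h1 : ∀ b : F, γ.left * aff 1 (γ.right b) * γ.left⁻¹ = aff 1 b := fun b => by
    obtain ⟨u, hu⟩ := emb_surj (aff (1 : F) b)
    have := hγ u
    rw [h u (mem_uniS'.2 (mem_uni_inf.2 ⟨b, hu⟩)), hu, act, fAut_apply,
      map_aff _ one_ne_zero, map_one] at this
    exact this.symm
  have h2 : γ.left • (inf : P1 F) = inf := by
    obtain ⟨u, hu⟩ := emb_surj (aff (1 : F) 1)
    have u1 : u ≠ 1 := fun e => by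
      rw [e, map_one, eq_comm, aff_eq_one_iff one_ne_zero] at hu
      exact one_ne_zero hu.2
    refine eq_of_mem_uniS u1 (mem_uniS'.2 (mem_uni_smul_inf.2 ⟨_, hu.trans (h1 1).symm⟩)) ?_
    rw [← emb_smul, hu, aff_smul_inf one_ne_zero]
  obtain ⟨a, d, ha, e⟩ := exists_aff h2
  have h3 : ∀ b : F, a * γ.right b = b := fun b => by
    have := h1 b
    rw [e, aff_conj_one ha, aff_inj one_ne_zero one_ne_zero] at this
    exact this.2
  have h4 : a = 1 := by simpa using h3 1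
  exact RingEquiv.ext fun b => by simpa [h4] using h3 b

theorem sy_uni {α : MulAut PSL(2, F)} {y : P1 F} (h : ∀ u ∈ uniS y, α u = u) :
    α ∈ Inn PSL(2, F) := by
  obtain ⟨g, rfl⟩ := exists_smulS (inf : P1 F) y
  have h1 : (MulAut.conj g)⁻¹ * α * MulAut.conj g ∈ Inn PSL(2, F) := sy_inf fun u hu => by
    have h2 : g * u * g⁻¹ ∈ uniS (g • (inf : P1 F)) := by
      rw [uniS_smul, conj_mem_cj]; exact hu
    rw [MulAut.mul_apply, MulAut.mul_apply, MulAut.conj_apply, h _ h2, MulAut.conj_inv_apply]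
    group
  have h3 := (Inn PSL(2, F)).mul_mem ((Inn PSL(2, F)).mul_mem ⟨g, rfl⟩ h1)
    ((Inn PSL(2, F)).inv_mem ⟨g, rfl⟩)
  rwa [show MulAut.conj g * ((MulAut.conj g)⁻¹ * α * MulAut.conj g) * (MulAut.conj g)⁻¹ = α by
    group] at h3

theorem o1 (h4 : 4 ≤ Fintype.card F) (α β : MulAut PSL(2, F)) (ha : α * α = 1) (hb : β * β = 1) :
    α ∈ Inn PSL(2, F) ∨ β ∈ Inn PSL(2, F) ∨ α * β ∈ Inn PSL(2, F) := by
  obtain ⟨f, φ, hf, -, hφ⟩ := exists_out h4
  haveI : NeZero f := ⟨by omega⟩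
  rw [← hφ, ← hφ, ← hφ, map_mul]
  exact cyc_two (by rw [← map_mul, ha, map_one]) (by rw [← map_mul, hb, map_one])

theorem conj_inj (h4 : 4 ≤ Fintype.card F) :
    Function.Injective (MulAut.conj : PSL(2, F) →* MulAut PSL(2, F)) := by
  haveI := isSimpleGroup_PSL (F := F) (by rwa [Nat.card_eq_fintype_card])
  rw [← MonoidHom.ker_eq_bot_iff]
  refine (IsSimpleGroup.eq_bot_or_eq_top_of_normal _ inferInstance).resolve_right fun h => ?_
  obtain ⟨a, b, hab⟩ := exists_not_comm_PSL (F := F)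
  have h1 : MulAut.conj a = 1 := MonoidHom.mem_ker.1 (h ▸ mem_top a)
  have h2 : a * b * a⁻¹ = b := by rw [← MulAut.conj_apply, h1, MulAut.one_apply]
  exact hab (mul_inv_eq_iff_eq_mul.1 h2)

theorem bd (h4 : 4 ≤ Fintype.card F) (Y : Subgroup (MulAut PSL(2, F)))
    (hY : IsElementaryAbelian 2 Y) : Nat.card Y ≤ Fintype.card F := by
  have inj := conj_inj h4
  set c : PSL(2, F) →* MulAut PSL(2, F) := MulAut.conj with hc
  have sq : ∀ α ∈ Y, α * α = 1 := fun α h => by rw [← pow_two]; exact hY.2 α h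
  have hp : IsPGroup 2 (Y.comap c) := fun x => ⟨1, Subtype.ext (inj (by
    rw [pow_one, coe_pow, map_pow, OneMemClass.coe_one, map_one]; exact hY.2 _ x.2))⟩
  obtain ⟨y, hy⟩ := exists_le_uniS 2 hp
  have hq : Nat.card (uniS y) = Fintype.card F := by rw [card_uniS, Nat.card_eq_fintype_card]
  have h0 : Nat.card (Y.comap c) = Nat.card (Inn PSL(2, F) ⊓ Y : Subgroup _) := by
    rw [← card_map_of_injective (f := c) inj, map_comap_eq]
  by_cases hle : Y ≤ Inn PSL(2, F)
  · rw [inf_eq_right.2 hle] at h0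
    rw [← h0, ← hq]
    exact card_le_of_le hy
  · obtain ⟨α, hα, hn⟩ := SetLike.not_le_iff_exists.1 hle
    have h2 : (Inn PSL(2, F)).relIndex Y = 2 :=
      relIndex_eq_two_iff_exists_notMem_and'.2 ⟨α, hα, hn, fun β hβ =>
        ((o1 h4 α β (sq α hα) (sq β hβ)).resolve_left hn).symm⟩
    have h3 : Nat.card (Inn PSL(2, F) ⊓ Y : Subgroup _) * 2 = Nat.card Y := by
      have e := card_mul_index ((Inn PSL(2, F) ⊓ Y).subgroupOf Y)
      rwa [Nat.card_congr (subgroupOfEquivOfLe (inf_le_right : Inn PSL(2, F) ⊓ Y ≤ Y)).toEquiv,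
        ← relIndex, inf_relIndex_right, h2] at e
    have h5 : Y.comap c ≠ uniS y := fun e => hn (sy_uni (y := y) fun u hu => inj (by
      have hu' : c u ∈ Y := by rw [← mem_comap, e]; exact hu
      have hcm : α * c u = c u * α :=
        congrArg Subtype.val (hY.1.is_comm.comm (⟨α, hα⟩ : Y) ⟨c u, hu'⟩)
      have : c (α u) = α * c u * α⁻¹ := by
        ext g
        simp [hc]
      rw [this, hcm, mul_inv_cancel_right]))
    obtain ⟨k, hk⟩ := card_dvd_of_le hy
    have k1 : k ≠ 1 := by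
      rintro rfl
      exact h5 (eq_of_le_of_card_ge hy (by omega))
    have k0 : k ≠ 0 := by
      rintro rfl
      omega
    rw [← h3, ← h0, ← hq, hk]
    exact Nat.mul_le_mul_left _ (by omega)

theorem ex (h4 : 4 ≤ Fintype.card F) : ∃ E H : Subgroup PSL(2, F),
    IsElementaryAbelian 2 E ∧ Nat.card E = Fintype.card F ∧ Odd (Nat.card H) ∧
    H ≤ NN E ∧ (∀ a ∈ E, ∀ b ∈ E, a ≠ 1 → b ≠ 1 → ∃ h ∈ H, h * a * h⁻¹ = b) ∧
    (3 ∣ Nat.card H ∨ ∀ α : MulAut PSL(2, F), α * α = 1 → α ∈ Inn PSL(2, F)) := by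
  classical
  have h2 : (2 : F) = 0 := CharTwo.two_eq_zero
  obtain ⟨f, φ, hf, hF, hφ⟩ := exists_out h4
  obtain ⟨a, a0, a1⟩ : ∃ a : F, a ≠ 0 ∧ a ≠ 1 := by
    by_contra hcon
    push Not at hcon
    have : (Finset.univ : Finset F) ⊆ {0, 1} := fun x _ => by
      by_cases h : x = 0
      · simp [h]
      · simp [hcon x h]
    have h5 := (Finset.card_le_card this).trans Finset.card_le_two
    rw [Finset.card_univ] at h5
    omega
  obtain ⟨k, hk⟩ := emb_surj (aff a (0 : F))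
  have kt : tau (emb k) ≠ 4 := by rw [hk, Ne, tau_aff_eq_four a0]; exact a1
  have ki : k • (inf : P1 F) = inf := by rw [← emb_smul, hk, aff_smul_inf a0]
  have od : Odd (2 ^ f - 1) :=
    Nat.Even.sub_odd Nat.one_le_two_pow (Nat.even_pow.2 ⟨even_two, by omega⟩) odd_one
  have hH : Nat.card (torS k) = 2 ^ f - 1 := by
    have := card_torS_mul_of_fix kt ki
    rwa [Nat.card_eq_fintype_card (α := F), hF, (Nat.coprime_two_left.2 od : Nat.gcd 2 _ = 1),
      mul_one] at this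
  refine ⟨uniS inf, torS k, ⟨⟨⟨fun x y => Subtype.ext (uniS_comm x.2 y.2)⟩⟩,
    fun x hx => by rw [pow_two]; exact mul_self_uniS hx⟩,
    by rw [card_uniS, Nat.card_eq_fintype_card], hH ▸ od, fun h hh => ?_,
    fun x hx y hy x1 y1 => ?_, ?_⟩
  · rw [NN, normalizer_uniS]
    exact smul_eq_of_mem_torS (ne_one_of_tauS kt) hh ki
  · obtain ⟨s, hs⟩ := mem_uni_inf.1 (mem_uniS'.1 hx)
    obtain ⟨t, ht⟩ := mem_uni_inf.1 (mem_uniS'.1 hy)
    have s0 : s ≠ 0 := fun e => x1 (emb_eq_one.1 (by rw [hs, e, aff_one_zero]))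
    have t0 : t ≠ 0 := fun e => y1 (emb_eq_one.1 (by rw [ht, e, aff_one_zero]))
    have d0 : t / s ≠ 0 := div_ne_zero t0 s0
    obtain ⟨h, hh⟩ := emb_surj (aff (t / s) (0 : F))
    refine ⟨h, ?_, emb_injective ?_⟩
    · rw [← centralizer_eq_torS_of_char_two h2, mem_centralizer_singleton_iff]
      refine emb_injective ?_
      rw [map_mul, map_mul, hh, hk, aff_mul d0 a0, aff_mul a0 d0, mul_comm]
      simp
    · rw [map_mul, map_mul, map_inv, hh, hs, ht, aff_conj_one d0, div_mul_cancel₀ t s0]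
  · rcases Nat.even_or_odd f with ⟨m, rfl⟩ | hodd
    · left
      rw [hH, ← two_mul, pow_mul]
      simpa using Nat.sub_dvd_pow_sub_pow 4 1 m
    · right
      intro α hα
      haveI : NeZero f := ⟨by omega⟩
      rw [← hφ, ← orderOf_eq_one_iff]
      have d1 : orderOf (φ α) ∣ 2 :=
        orderOf_dvd_of_pow_eq_one (by rw [pow_two, ← map_mul, hα, map_one])
      have d2 : orderOf (φ α) ∣ f := by
        simpa using orderOf_dvd_natCard (φ α)
      exact Nat.eq_one_of_dvd_coprimes (Nat.coprime_two_left.2 hodd) d1 d2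

theorem o3 (α : MulAut PSL(2, F)) (hα : α * α = 1) (hn : α ∉ Inn PSL(2, F)) :
    ∃ ρ e : PSL(2, F), orderOf ρ = 3 ∧ e * ρ * e⁻¹ = ρ⁻¹ ∧ α ρ = ρ ∧ α e = e := by
  have h2 : (2 : F) = 0 := CharTwo.two_eq_zero
  obtain ⟨γ, hγ⟩ := exists_pga α
  have hσ : γ.right ≠ 1 := fun e => hn (inn_of_right hγ e)
  have hγ2 : γ * γ = 1 := pga_eq_one fun g => SemidirectProduct.inl_injective (φ := fAut F) (by
    have e : emb g = act γ (act γ (emb g)) := by
      rw [← hγ, ← hγ, ← MulAut.mul_apply, hα, MulAut.one_apply]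
    conv_rhs => rw [e]
    rw [← conj_inl, ← conj_inl, ← conj_inl]
    group)
  have ho : orderOf γ.right = 2 := orderOf_eq_prime
    (by rw [sq, ← SemidirectProduct.mul_right, hγ2, SemidirectProduct.one_right]) hσ
  obtain ⟨k, hk⟩ := exists_lang (γ := γ) (by rw [ho, sq, hγ2])
  have hact : ∀ u, fAut F γ.right u = u → act γ (k * u * k⁻¹) = k * u * k⁻¹ := fun u hu => by
    rw [act, map_mul, map_mul, map_inv, hu]
    conv_rhs => rw [← hk]
    group
  have dA : (!![0, 1; 1, 1] : M2 F).det ≠ 0 := by simp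
  have dB : (!![0, 1; 1, 0] : M2 F).det ≠ 0 := by simp
  obtain ⟨ρ, hρ⟩ := emb_surj (k * pm (!![0, 1; 1, 1] : M2 F) * k⁻¹)
  obtain ⟨e, he⟩ := emb_surj (k * pm (!![0, 1; 1, 0] : M2 F) * k⁻¹)
  haveI : Fact (Nat.Prime 3) := ⟨by norm_num⟩
  have h11 : (1 : F) + 1 = 0 := by rw [← h2]; norm_num
  refine ⟨ρ, e, ?_, emb_injective ?_, emb_injective ?_, emb_injective ?_⟩
  · rw [← orderOf_emb, hρ]
    refine ((MulAut.conj k).orderOf_eq _).trans (orderOf_eq_prime ?_ ?_)
    · rw [← pm_pow dA, ← pm_one]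
      congr 1
      ext i j
      fin_cases i <;> fin_cases j <;> simp [pow_succ, h11]
    · simp [pm_eq_one_iff dA]
  · have h3 : pm (!![0, 1; 1, 0] : M2 F) * pm !![0, 1; 1, 1] * (pm !![0, 1; 1, 0])⁻¹ =
        (pm (!![0, 1; 1, 1] : M2 F))⁻¹ := by
      rw [← pm_adjugate dA]
      refine pm_conj dA dB ?_
      ext i j
      fin_cases i <;> fin_cases j <;> simp [Matrix.adjugate_fin_two, CharTwo.neg_eq]
    rw [map_mul, map_mul, map_inv, map_inv, hρ, he]
    calc _ = k * (pm (!![0, 1; 1, 0] : M2 F) * pm !![0, 1; 1, 1] * (pm !![0, 1; 1, 0])⁻¹) * k⁻¹ := by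
          group
      _ = _ := by rw [h3]; group
  · rw [hγ, hρ]
    refine hact _ ?_
    rw [fAut_apply, map_pm _ dA]
    congr 1
    ext i j
    fin_cases i <;> fin_cases j <;> simp
  · rw [hγ, he]
    refine hact _ ?_
    rw [fAut_apply, map_pm _ dB]
    congr 1
    ext i j
    fin_cases i <;> fin_cases j <;> simp

theorem ty_l2 (h4 : 4 ≤ Fintype.card F) : Ty (Fintype.card F) PSL(2, F) where
  simple := isSimpleGroup_PSL (by rwa [Nat.card_eq_fintype_card])
  nab := fun h => by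
    obtain ⟨a, b, hab⟩ := exists_not_comm_PSL (F := F)
    exact hab (h.is_comm.comm a b)
  q4 := h4
  outc := fun α β => by
    obtain ⟨f, φ, -, -, hφ⟩ := exists_out h4
    rw [← hφ, map_commutatorElement, commutatorElement_eq_one_iff_mul_comm, mul_comm]
  one := fun a b ha hb => isConjS_of_orderOf_two ha hb
  ci := ci
  sy := fun U α _ h => by
    obtain ⟨y, hy⟩ := exists_sylow_eq_uniS 2 U
    exact sy_uni (y := y) fun u hu => h u (by rw [← hy] at hu; exact hu)
  o1 := fun α β ha hb _ => o1 h4 α β ha hb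
  bd := bd h4
  ex := ex h4
  o3 := o3

end TyA

theorem ty_l2 {F : Type} [Field F] [Fintype F] [CharP F 2] (h4 : 4 ≤ Fintype.card F) :
    Ty (Fintype.card F) (Matrix.ProjectiveSpecialLinearGroup (Fin 2) F) :=
  TyA.ty_l2 h4

end Cfsg.Agent.QE
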