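import Mathlib
import Cfsg.Agent.QE.Defs
import Cfsg.Agent.Cl.PGammaL2
import Cfsg.Agent.Cl.PSL2Class
import Cfsg.Agent.Cl.PSL2Solv

/-! # S1848, piece QE-TyP: L2(p), p Fermat or Mersenne -/

set_option autoImplicit false
set_option linter.unusedVariables false

namespace Cfsg.Agent.QE

open Cfsg Subgroup Cfsg.Agent.GT Cfsg.Agent.Inv Cfsg.Agent.Cmp
open scoped commutatorElement

universe u

section TyP

open Cfsg.Agent.Cl.L2
open scoped MatrixGroups

variable {F : Type} [Field F]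

/-- Conjugation by `PGL₂` on `PSL₂`. -/
noncomputable def typTh (F : Type) [Field F] : PGL(2, F) →* MulAut PSL(2, F) where
  toFun c := conjS c
  map_one' := MulEquiv.ext fun g => emb_injective (by rw [emb_conjS]; simp)
  map_mul' a b := MulEquiv.ext fun g => emb_injective (by
    change emb (conjS (a * b) g) = emb (conjS a (conjS b g))
    rw [emb_conjS, emb_conjS, emb_conjS]; group)

theorem typ_emb (c : PGL(2, F)) (g : PSL(2, F)) : emb (typTh F c g) = c * emb g * c⁻¹ :=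
  emb_conjS c g

theorem typ_th_emb (x : PSL(2, F)) : typTh F (emb x) = MulAut.conj x :=
  MulEquiv.ext fun g => emb_injective (by rw [typ_emb]; simp)

theorem typ_fix {c : PGL(2, F)} {g : PSL(2, F)} : typTh F c g = g ↔ Commute c (emb g) := by
  rw [← emb_injective.eq_iff, typ_emb, mul_inv_eq_iff_eq_mul]
  rfl

theorem typ_inj [Finite F] : Function.Injective (typTh F) := by
  rw [injective_iff_map_eq_one]
  intro c hc
  have h : (SemidirectProduct.inl c : PGa F) = 1 := pga_eq_one fun g => by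
    rw [act_inl, ← typ_emb, hc]
    rfl
  exact SemidirectProduct.inl_injective (φ := fAut F) (h.trans (map_one _).symm)

theorem typ_inn [Finite F] {c : PGL(2, F)} : typTh F c ∈ Inn PSL(2, F) ↔ c ∈ psl F := by
  constructor
  · rintro ⟨x, hx⟩
    rw [← typ_th_emb] at hx
    rw [← typ_inj hx]
    exact emb_mem_psl x
  · intro h
    obtain ⟨x, rfl⟩ := exists_emb_of_mem h
    exact ⟨x, (typ_th_emb x).symm⟩

theorem typ_surj [Fintype F] (hp : (Fintype.card F).Prime) : Function.Surjective (typTh F) := by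
  intro α
  obtain ⟨γ, hγ⟩ := exists_pga α
  have := Fact.mk hp
  have h1 : γ.right = 1 := by
    ext x
    obtain ⟨y, rfl⟩ := (ZMod.ringEquivOfPrime F hp rfl).surjective x
    obtain ⟨n, rfl⟩ := ZMod.natCast_zmod_surjective y
    simp
  refine ⟨γ.left, MulEquiv.ext fun g => emb_injective ?_⟩
  rw [typ_emb, hγ, eq_inl h1, act_inl]
  rfl

/-- The torus of an involution outside `PSL₂` has order not divisible by four. -/
theorem typ_not_four [Finite F] (h2 : (2 : F) ≠ 0) {c : PGL(2, F)} (hc : orderOf c = 2)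
    (hn : c ∉ psl F) : ¬ 4 ∣ Nat.card (tor c) := by
  intro h4
  have := isCyclic_tor (tau_ne_four_of_two h2 hc)
  obtain ⟨g, hg⟩ := IsCyclic.exists_ofOrder_eq_natCard (α := tor c)
  rw [← hg] at h4
  have h0 : orderOf g ≠ 0 := (orderOf_pos g).ne'
  have h5 := orderOf_pow_orderOf_div h0 h4
  set y := g ^ (orderOf g / 4)
  have h6 : orderOf (y ^ 2) = 2 := by
    rw [orderOf_pow' _ two_ne_zero, h5]
    rfl
  have h7 : orderOf ((y : PGL(2, F)) * y) = 2 := by
    rw [← Subgroup.orderOf_coe, sq] at h6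
    exact h6
  have h8 := eq_of_mem_tor h2 hc h7 (mul_mem y.2 y.2)
  exact hn (h8 ▸ mul_self_mem_psl _)

/-- Elementary abelian 2-subgroups of `PGL₂` have order at most four. -/
theorem typ_bd [Finite F] (h2 : (2 : F) ≠ 0) {Y : Subgroup PGL(2, F)}
    (hc : ∀ a ∈ Y, ∀ b ∈ Y, Commute a b) (hs : ∀ a ∈ Y, a ^ 2 = 1) : Nat.card Y ≤ 4 := by
  by_cases hb : Y = ⊥
  · rw [hb]; simp
  obtain ⟨⟨a, ha⟩, ha1⟩ := ne_bot_iff_exists_ne_one.1 hb
  have ha1 : a ≠ 1 := fun h => ha1 (Subtype.ext h)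
  have ho : orderOf a = 2 := orderOf_eq_prime (hs a ha) ha1
  have h4 := tau_ne_four_of_two h2 ho
  have hY : Y ≤ ntor a := fun y hy => (mem_ntor_iff_commute h2 ho).2 (hc y hy a ha)
  have h1 : Nat.card (Y ⊓ tor a : Subgroup _) ≤ 2 := by
    have h3 : (Y ⊓ tor a : Subgroup _) ≤ zpowers a := by
      intro y hy
      by_cases h : y = 1
      · rw [h]; exact one_mem _
      · rw [eq_of_mem_tor h2 ho (orderOf_eq_prime (hs y hy.1) h) hy.2]
        exact mem_zpowers a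
    have h5 := card_le_of_le h3
    rwa [Nat.card_zpowers, ho] at h5
  have h6 : (tor a).relIndex Y ≤ 2 := by
    exact (relIndex_le_of_le_right hY (by rw [relIndex_tor_ntor h4]; exact two_ne_zero)).trans
      (relIndex_tor_ntor h4).le
  rw [← Cl.L2.card_inf_mul_relIndex Y (tor a)]
  exact Nat.mul_le_mul h1 h6

/-- The arithmetic of `p = 2 ^ k ± 1`. -/
theorem typ_arith {p : ℕ} (hp : IsTwoPowerNeighbourPrime p) (h7 : 7 ≤ p) :
    ∃ k : ℕ, 3 ≤ k ∧ ((p % 4 = 1 ∧ p - 1 = 2 ^ k ∧ 3 ∣ p + 1) ∨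
      (p % 4 = 3 ∧ p + 1 = 2 ^ k ∧ 3 ∣ p - 1)) := by
  obtain ⟨hpr, h⟩ := hp
  have h3 : ¬ 3 ∣ p := fun h => by
    have := (Nat.prime_dvd_prime_iff_eq Nat.prime_three hpr).1 h
    omega
  have h4 : ∀ k : ℕ, ¬ 3 ∣ 2 ^ k := fun k h => by
    have := Nat.prime_three.dvd_of_dvd_pow h
    omega
  have h5 : ∀ k : ℕ, 6 ≤ 2 ^ k → 3 ≤ k := fun k h => by
    by_contra hk
    have : k ≤ 2 := by omega
    interval_cases k <;> omega
  have h6 : ∀ k : ℕ, 3 ≤ k → 8 ∣ 2 ^ k := fun k h => pow_dvd_pow 2 h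
  rcases h with ⟨k, -, hk⟩ | ⟨k, hk⟩
  · have h8 := h5 k (by omega)
    have h9 := h6 k h8
    have h10 := h4 k
    refine ⟨k, h8, Or.inl ⟨by omega, by omega, ?_⟩⟩
    clear h9
    have : p % 3 = 0 ∨ p % 3 = 1 ∨ p % 3 = 2 := by omega
    omega
  · have h8 := h5 k (by omega)
    have h9 := h6 k h8
    have h10 := h4 k
    refine ⟨k, h8, Or.inr ⟨by omega, by omega, ?_⟩⟩
    clear h9
    have : p % 3 = 0 ∨ p % 3 = 1 ∨ p % 3 = 2 := by omega
    omega

set_option synthInstance.maxSize 2048 in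
theorem typ_a4 : ∃ ρ : alternatingGroup (Fin 4), orderOf ρ = 3 ∧
    ∀ a b : alternatingGroup (Fin 4), a ^ 2 = 1 → b ^ 2 = 1 → a ≠ 1 → b ≠ 1 →
      a = b ∨ ρ * a * ρ⁻¹ = b ∨ ρ⁻¹ * a * ρ⁻¹⁻¹ = b := by
  have := Fact.mk Nat.prime_three
  refine ⟨⟨Equiv.swap 0 1 * Equiv.swap 1 2, Equiv.Perm.mem_alternatingGroup.2 (by decide)⟩,
    orderOf_eq_prime (by decide) (by decide), by decide +kernel⟩

theorem typ_ex [Finite F] (h2 : (2 : F) ≠ 0) : ∃ E H : Subgroup PSL(2, F),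
    IsElementaryAbelian 2 E ∧ Nat.card E = 4 ∧ Nat.card H = 3 ∧ H ≤ NN E ∧
      ∀ a ∈ E, ∀ b ∈ E, a ≠ 1 → b ≠ 1 → ∃ h ∈ H, h * a * h⁻¹ = b := by
  obtain ⟨K, ⟨e⟩⟩ := exists_A4S h2
  obtain ⟨φ, hφ, -⟩ := exists_range_eq e
  obtain ⟨ρ, hρ, ht⟩ := typ_a4
  have h4 : Nat.card (Fin 4) = 4 := by simp
  have hK := alternatingGroup.kleinFour_isKleinFour h4
  have hN := alternatingGroup.normal_kleinFour h4
  set V := alternatingGroup.kleinFour (Fin 4)
  have hsq : ∀ a ∈ V, a ^ 2 = 1 := fun a ha => by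
    have := IsKleinFour.mul_self (⟨a, ha⟩ : V)
    rw [sq]
    exact congrArg Subtype.val this
  refine ⟨V.map φ, zpowers (φ ρ), ⟨?_, ?_⟩, ?_, ?_, ?_, ?_⟩
  · have : IsMulCommutative V := IsKleinFour.isMulCommutative
    infer_instance
  · rintro _ ⟨a, ha, rfl⟩
    rw [← map_pow, hsq a ha, map_one]
  · rw [card_map_of_injective hφ]
    exact hK.card_four
  · rw [Nat.card_zpowers, orderOf_injective φ hφ, hρ]
  · rw [zpowers_le]
    exact range_le_normalizer_map φ V ⟨ρ, rfl⟩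
  · rintro _ ⟨a, ha, rfl⟩ _ ⟨b, hb, rfl⟩ a1 b1
    rcases ht a b (hsq a ha) (hsq b hb) (fun h => a1 (by rw [h, map_one]))
      (fun h => b1 (by rw [h, map_one])) with h | h | h
    · exact ⟨1, one_mem _, by simp [h]⟩
    · exact ⟨φ ρ, mem_zpowers _, by rw [← h]; simp⟩
    · exact ⟨(φ ρ)⁻¹, inv_mem (mem_zpowers _), by rw [← h]; simp⟩

end TyP

open Cfsg.Agent.Cl.L2 in
theorem ty_lp {F : Type} [Field F] [Fintype F] (hp : IsTwoPowerNeighbourPrime (Fintype.card F))
    (h7 : 7 ≤ Fintype.card F) : Ty 4 (Matrix.ProjectiveSpecialLinearGroup (Fin 2) F) := by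
  have hs := typ_surj hp.1
  have hN : Nat.card F = Fintype.card F := Nat.card_eq_fintype_card
  obtain ⟨k, hk, ha⟩ := typ_arith hp h7
  rw [← hN] at ha h7
  have h2 : (2 : F) ≠ 0 := two_ne_zero_iff_odd.2 (by omega)
  have h8 : 8 ∣ 2 ^ k := pow_dvd_pow 2 hk
  have hinv : ∀ c, typTh F c * typTh F c = 1 → c ∉ psl F → orderOf c = 2 := fun c h1 h3 => by
    refine orderOf_eq_prime (typ_inj ?_) fun h => h3 (h ▸ one_mem _)
    rw [sq, map_mul, h1, map_one]
  refine ⟨isSimpleGroup_PSL (by omega), fun h => ?_, le_rfl, fun α β => ?_,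
    fun a b => isConjS_of_orderOf_two, fun a x h1 hc ho => ?_, fun U α h1 hU => ?_,
    fun α β _ _ _ => ?_, fun Y hY => ?_, ?_, fun α h1 hn => ?_⟩
  · obtain ⟨a, b, hab⟩ := exists_not_comm_PSL (F := F)
    exact hab (h.is_comm.comm a b)
  · obtain ⟨a, rfl⟩ := hs α
    obtain ⟨b, rfl⟩ := hs β
    rw [← map_commutatorElement, typ_inn, commutatorElement_def]
    by_cases h1 : a ∈ psl F
    · rw [mul_assoc, mul_assoc, ← mul_assoc b]
      exact mul_mem h1 (psl_normal.conj_mem _ (inv_mem h1) b)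
    by_cases h3 : b ∈ psl F
    · exact mul_mem (psl_normal.conj_mem _ h3 a) (inv_mem h3)
    · rw [mul_assoc]
      exact mul_mem (mul_mem_psl_of_not_mem h1 h3)
        (mul_mem_psl_of_not_mem (fun h => h1 (inv_mem_iff.1 h)) fun h => h3 (inv_mem_iff.1 h))
  · have h3 : x ∈ torS a := mem_torS.2 (mem_tor_of_odd h2 (by rwa [orderOf_emb])
      (hc.symm.map emb) (by rwa [orderOf_emb]))
    have h4 : orderOf x ∣ Nat.card (torS a) := orderOf_dvd_natCard _ h3
    have h5 : Nat.card (torS a) * 2 = 2 ^ k := by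
      have := card_torS_of_orderOf_two h2 h1
      omega
    have h6 : orderOf x ∣ 2 ^ k := h5 ▸ h4.mul_right 2
    have h9 : (orderOf x).Coprime (2 ^ k) := (Nat.coprime_two_right.2 ho).pow_right k
    exact orderOf_eq_one_iff.1 (Nat.eq_one_of_dvd_coprimes h9 dvd_rfl h6)
  · obtain ⟨c, rfl⟩ := hs α
    rw [typ_inn]
    by_contra hn
    have ho := hinv c h1 hn
    have h4 := typ_not_four h2 ho hn
    have h5 : (U : Subgroup _).map emb ≤ ntor c := by
      rintro _ ⟨u, hu, rfl⟩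
      exact (mem_ntor_iff_commute h2 ho).2 (typ_fix.1 (hU u hu)).symm
    have h6 := card_dvd_of_le h5
    rw [card_map_of_injective emb_injective, card_ntor (tau_ne_four_of_two h2 ho)] at h6
    have h9 : 2 ^ 3 ∣ Nat.card U := by
      refine U.pow_dvd_card_of_pow_dvd_card ?_
      have h10 := card_PSL_two h2
      have h11 : 16 ∣ Nat.card F * (Nat.card F - 1) * (Nat.card F + 1) := by
        rw [mul_assoc]
        refine Dvd.dvd.mul_left ?_ _
        rcases ha with ⟨b1, b2, -⟩ | ⟨b1, b2, -⟩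
        · exact mul_dvd_mul (a := 8) (c := 2) (b2 ▸ h8) (by omega)
        · exact mul_dvd_mul (a := 2) (c := 8) (by omega) (b2 ▸ h8)
      omega
    have h10 := h9.trans h6
    omega
  · obtain ⟨a, rfl⟩ := hs α
    obtain ⟨b, rfl⟩ := hs β
    rw [← map_mul, typ_inn, typ_inn, typ_inn]
    by_cases h1 : a ∈ psl F
    · exact Or.inl h1
    by_cases h3 : b ∈ psl F
    · exact Or.inr (Or.inl h3)
    · exact Or.inr (Or.inr (mul_mem_psl_of_not_mem h1 h3))
  · have h1 : (Y.comap (typTh F)).map (typTh F) = Y := map_comap_eq_self_of_surjective hs Y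
    rw [← h1, card_map_of_injective typ_inj]
    refine typ_bd h2 (fun a ha b hb => typ_inj ?_) fun a ha => typ_inj ?_
    · rw [map_mul, map_mul]
      exact congrArg Subtype.val (hY.1.is_comm.comm (⟨_, ha⟩ : Y) ⟨_, hb⟩)
    · rw [map_pow, map_one]
      exact hY.2 _ ha
  · obtain ⟨E, H, e1, e2, e3, e4, e5⟩ := typ_ex h2
    exact ⟨E, H, e1, e2, by rw [e3]; decide, e4, e5, Or.inl (by rw [e3])⟩
  · obtain ⟨c, rfl⟩ := hs α
    rw [typ_inn] at hn
    have ho := hinv c h1 hn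
    have ht := tau_ne_four_of_two h2 ho
    have h4 := typ_not_four h2 ho hn
    have h3 : 3 ∣ Nat.card (tor c) := by
      have := card_tor_or ht
      omega
    have := Fact.mk Nat.prime_three
    obtain ⟨r, hr⟩ := exists_prime_orderOf_dvd_card' 3 h3
    rw [← Subgroup.orderOf_coe] at hr
    obtain ⟨ρ, hρ⟩ := exists_emb_of_mem (mem_psl_of_odd (g := r.1) (by rw [hr]; decide))
    obtain ⟨n, n1, n2, n3⟩ := exists_mem_ntor_psl ht
    obtain ⟨e, rfl⟩ := exists_emb_of_mem n1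
    refine ⟨ρ, e, by rw [← orderOf_emb, hρ, hr], emb_injective ?_, typ_fix.2 ?_, typ_fix.2 ?_⟩
    · rw [map_mul, map_mul, map_inv, map_inv, hρ]
      exact conj_eq_inv_of_mem_ntor ht n2 n3 r.2
    · rw [hρ]
      exact comm_of_mem_tor r.2
    · exact ((mem_ntor_iff_commute h2 ho).1 n2).symm

end Cfsg.Agent.QE
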